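import Cfsg.Agent.F4AltSection.Torus
import Cfsg.Agent.PGroup.Frattini
import Mathlib.GroupTheory.Nilpotent
import Mathlib.GroupTheory.Frattini
import Mathlib.GroupTheory.Transfer
import Mathlib.GroupTheory.SpecificGroups.Alternating.Simple
import Mathlib.GroupTheory.SpecificGroups.Alternating.Centralizer
import Mathlib.LinearAlgebra.Matrix.GeneralLinearGroup.Card
import Mathlib.FieldTheory.Finite.GaloisField

/-!
The kernel of a minimal extension of an alternating group inside a Chevalley group has order prime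
to `l`, when the monomial subgroup has index prime to `l`, the Weyl group has order not divisible by
`l²`, and the alternating group is too large for the automorphism groups of small elementary
abelian `l`-groups.
-/

set_option autoImplicit false

namespace CfsgLib.E7Alt65

open Cfsg.Lie CfsgLib.Chevalley
open scoped commutatorElement
set_option linter.style.haveILetI false

section Group

variable {H : Type*} [Group H]

/-- Commutators and `l`-th powers of `U`. -/
def omegaPrime (l : ℕ) (U : Subgroup H) : Subgroup H :=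
  Subgroup.closure ({x | ∃ u ∈ U, u ^ l = x} ∪ {x | ∃ u ∈ U, ∃ v ∈ U, ⁅u, v⁆ = x})

theorem omegaPrime_le (l : ℕ) (U : Subgroup H) : omegaPrime l U ≤ U := by
  refine (Subgroup.closure_le _).mpr ?_
  rintro x (⟨u, hu, rfl⟩ | ⟨u, hu, v, hv, rfl⟩)
  · exact pow_mem hu l
  · rw [commutatorElement_def]
    exact mul_mem (mul_mem (mul_mem hu hv) (inv_mem hu)) (inv_mem hv)

theorem omegaPrime_normal (l : ℕ) (U : Subgroup H) [hU : U.Normal] : (omegaPrime l U).Normal := by
  refine ⟨fun x hx g => ?_⟩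
  induction hx using Subgroup.closure_induction with
  | mem x hx =>
    refine Subgroup.subset_closure ?_
    rcases hx with ⟨u, hu, rfl⟩ | ⟨u, hu, v, hv, rfl⟩
    · exact Or.inl ⟨g * u * g⁻¹, hU.conj_mem u hu g, by rw [conj_pow]⟩
    · exact Or.inr ⟨g * u * g⁻¹, hU.conj_mem u hu g, g * v * g⁻¹, hU.conj_mem v hv g, by
        rw [commutatorElement_def, commutatorElement_def]; group⟩
  | one => simp
  | mul x y _ _ hx hy =>
    rw [show g * (x * y) * g⁻¹ = g * x * g⁻¹ * (g * y * g⁻¹) by group]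
    exact mul_mem hx hy
  | inv x _ hx =>
    rw [show g * x⁻¹ * g⁻¹ = (g * x * g⁻¹)⁻¹ by group]
    exact inv_mem hx

theorem omegaPrime_lt [Finite H] {l : ℕ} [Fact l.Prime] {U : Subgroup H} (hU : IsPGroup l ↥U)
    (hne : U ≠ ⊥) : omegaPrime l U ≠ U := by
  haveI : Nontrivial ↥U := U.nontrivial_iff_ne_bot.mpr hne
  intro h
  obtain ⟨M, hM⟩ : ∃ M : Subgroup ↥U, IsCoatom M := (IsCoatomic.eq_top_or_exists_le_coatom
    (⊥ : Subgroup ↥U)).elim (fun h => absurd h bot_ne_top) fun ⟨M, hM, _⟩ => ⟨M, hM⟩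
  haveI : M.Normal := CfsgLib.PGroup.normal_of_coatom hU hM
  have hidx : M.index = l := CfsgLib.PGroup.index_of_coatom hU hM
  have hle : omegaPrime l U ≤ M.map U.subtype := by
    refine (Subgroup.closure_le _).mpr ?_
    rintro x (⟨u, hu, rfl⟩ | ⟨u, hu, v, hv, rfl⟩)
    · exact ⟨⟨u, hu⟩ ^ l, hidx ▸ M.pow_index_mem ⟨u, hu⟩, by simp⟩
    · refine ⟨⁅(⟨u, hu⟩ : ↥U), ⟨v, hv⟩⁆, ?_, by simp [commutatorElement_def]⟩
      have hc : IsCyclic (↥U ⧸ M) := isCyclic_of_prime_card (p := l) (by
        rw [← Subgroup.index_eq_card]; exact hidx)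
      show ⁅(⟨u, hu⟩ : ↥U), ⟨v, hv⟩⁆ ∈ M
      rw [← QuotientGroup.eq_one_iff, ← QuotientGroup.mk'_apply, map_commutatorElement,
        commutatorElement_eq_one_iff_commute]
      obtain ⟨g, hg⟩ := hc.exists_generator
      obtain ⟨a, ha⟩ := Subgroup.mem_zpowers_iff.mp (hg (QuotientGroup.mk' M (⟨u, hu⟩ : ↥U)))
      obtain ⟨b, hb⟩ := Subgroup.mem_zpowers_iff.mp (hg (QuotientGroup.mk' M (⟨v, hv⟩ : ↥U)))
      rw [← ha, ← hb]
      exact (Commute.refl g).zpow_zpow a b
  refine hM.1 (eq_top_iff.mpr fun x _ => ?_)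
  obtain ⟨y, hy, hxy⟩ := hle (h.symm ▸ x.2 : (x : H) ∈ omegaPrime l U)
  rwa [← Subtype.ext hxy]

theorem exists_basis_fin {l : ℕ} [Fact l.Prime] {V : Type*} [AddCommGroup V] [Module (ZMod l) V]
    [Finite V] {n : ℕ} (hcard : Nat.card V = l ^ n) :
    Nonempty (Module.Basis (Fin n) (ZMod l) V) := by
  have hr : Module.finrank (ZMod l) V = n := by
    have h := FiniteField.pow_finrank_eq_natCard l V
    rw [hcard] at h
    exact Nat.pow_right_injective (Nat.Prime.two_le Fact.out) h
  exact ⟨Module.finBasisOfFinrankEq (ZMod l) V hr⟩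

/-- Automorphism groups of elementary abelian groups of order `l^d`. -/
theorem card_mulAut_prime {A : Type*} [CommGroup A] [Finite A] {l : ℕ} [Fact l.Prime]
    (hA : ∀ a : A, a ^ l = 1) {n : ℕ} (hcard : Nat.card A = l ^ n) :
    Nat.card (MulAut A) ∣ ∏ i : Fin n, (l ^ n - l ^ (i : ℕ)) := by
  letI : Module (ZMod l) (Additive A) := AddCommGroup.zmodModule fun x => by
    apply Additive.toMul.injective
    rw [toMul_nsmul, toMul_zero]
    exact hA _
  obtain ⟨b⟩ := exists_basis_fin (l := l) (V := Additive A) (n := n) hcard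
  let f : MulAut A →* Matrix (Fin n) (Fin n) (ZMod l) :=
    { toFun := fun φ => LinearMap.toMatrixAlgEquiv b
        (AddMonoidHom.toZModLinearMap l (MonoidHom.toAdditive φ.toMonoidHom))
      map_one' := by
        rw [← map_one (LinearMap.toMatrixAlgEquiv b)]
        congr 1
      map_mul' := fun φ ψ => by
        rw [← map_mul (LinearMap.toMatrixAlgEquiv b)]
        congr 1 }
  have hf : Function.Injective f.toHomUnits := fun φ ψ h => by
    have h1 := (LinearMap.toMatrixAlgEquiv b).injective (congrArg Units.val h)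
    refine MulEquiv.ext fun x => ?_
    exact congrArg Additive.toMul (DFunLike.congr_fun h1 (Additive.ofMul x))
  have h := Subgroup.card_dvd_of_injective _ hf
  have hq := Matrix.card_GL_field (𝔽 := ZMod l) n
  rw [ZMod.card] at hq
  exact hq ▸ h

/-- A Frattini argument: an element normalising `A` is corrected to normalise a Sylow subgroup of
the preimage of `A`. -/
theorem exists_normalizing_lift {Q : Type*} [Group Q] [Finite H] (π : H →* Q) {l : ℕ} [Fact l.Prime]
    (A : Subgroup Q) (P : Subgroup H) (hP : IsPGroup l ↥P) (hPA : P ≤ A.comap π)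
    (hidx : ¬ l ∣ P.relIndex (A.comap π)) (x : H) (hx : ∀ a ∈ A, π x * a * (π x)⁻¹ ∈ A) :
    ∃ h ∈ A.comap π, ∀ s ∈ P, h * x * s * (h * x)⁻¹ ∈ P := by
  set M := A.comap π
  have hmap : ∀ s ∈ P, x * s * x⁻¹ ∈ M := fun s hs => by
    show π (x * s * x⁻¹) ∈ A
    rw [map_mul, map_mul, map_inv]
    exact hx _ (hPA hs)
  obtain ⟨g, hg⟩ := F4AltSection.exists_conj_into (P.subgroupOf M) hidx
    (P := (P.map (MulAut.conj x).toMonoidHom).subgroupOf M) ((hP.map _).comap_subtype)
  refine ⟨g, g.2, fun s hs => ?_⟩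
  have := hg ⟨x * s * x⁻¹, hmap s hs⟩ (Subgroup.mem_subgroupOf.mpr ⟨s, hs, rfl⟩)
  rw [Subgroup.mem_subgroupOf] at this
  simpa [mul_assoc] using this

end Group

section Chevalley

variable {D : Cfsg.Lie.ChevalleyDatum} (S : CfsgLib.Chevalley.Sys D) {F : Type*} [Field F]
  [Fintype F] {l : ℕ} [Fact l.Prime]
include S

/-- An `l`-subgroup has no abelian quotient of exponent `l` of order exceeding `l ^ (rank + 1)`. -/
theorem prime_quotient (hW : ¬ l ^ 2 ∣ Nat.card ↥(CfsgLib.F4AltSection.weylPerms S))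
    (hidx : ¬ l ∣ ((D.monomialSubgroup F).subgroupOf (D.group F)).index)
    (hT : Nat.card {t : GL D.Idx F // t ∈ D.diagonalSubgroup F ∧ t ^ l = 1} ≤ l ^ D.rank)
    {U V : Type*} [Group U] [Finite U] [CommGroup V] [Finite V] (hU : IsPGroup l U)
    (i : U →* GL D.Idx F) (hi : Function.Injective i) (hig : ∀ u, i u ∈ D.group F)
    (φ : U →* V) (hφ : Function.Surjective φ) (hV : ∀ v : V, v ^ l = 1) :
    ∃ d : ℕ, d ≤ D.rank + 1 ∧ Nat.card V = l ^ d := by
  classical
  have hl : l.Prime := Fact.out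
  obtain ⟨d, hd⟩ := IsPGroup.iff_card.mp (hU.of_surjective φ hφ)
  refine ⟨d, ?_, hd⟩
  let j : U →* ↥(D.group F) := i.codRestrict _ hig
  obtain ⟨g, hg⟩ := F4AltSection.exists_conj_into
    ((D.monomialSubgroup F).subgroupOf (D.group F)) hidx
    (hU.of_surjective j.rangeRestrict j.rangeRestrict_surjective)
  have hmem : ∀ u, (MulAut.conj (g : GL D.Idx F)) (i u) ∈ D.monomialSubgroup F := fun u => by
    have := hg (j u) ⟨u, rfl⟩
    rwa [Subgroup.mem_subgroupOf, Subgroup.coe_mul, Subgroup.coe_mul, Subgroup.coe_inv] at this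
  let k : U →* ↥(D.monomialSubgroup F) :=
    ((MulAut.conj (g : GL D.Idx F)).toMonoidHom.comp i).codRestrict _ hmem
  have hk : Function.Injective k := fun a b h =>
    hi ((MulAut.conj (g : GL D.Idx F)).injective (congrArg Subtype.val h))
  let θ : U →* Equiv.Perm (Fin D.nroots) := (S.perm F).comp k
  have hrange : θ.range ≤ F4AltSection.weylPerms S := by
    rintro _ ⟨u, rfl⟩
    exact S.exists_wperm F (k u)
  have hθ : Nat.card θ.range ≤ l := by
    obtain ⟨e, he⟩ := IsPGroup.iff_card.mp (hU.of_surjective θ.rangeRestrict θ.rangeRestrict_surjective)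
    have hdvd := Subgroup.card_dvd_of_le hrange
    rw [he] at hdvd ⊢
    by_contra hc
    have : 2 ≤ e := by
      by_contra h2
      exact hc (le_of_le_of_eq (Nat.pow_le_pow_right hl.pos (by omega : e ≤ 1)) (pow_one l))
    exact hW ((Nat.pow_dvd_pow l this).trans hdvd)
  -- the kernel is abelian and has few elements killed by `l`
  have hker : ∀ u ∈ θ.ker, ((k u : ↥(D.monomialSubgroup F)) : GL D.Idx F) ∈
      D.diagonalSubgroup F := fun u hu => by
    have : k u ∈ (S.perm F).ker := hu
    rwa [S.ker_perm F, hSub, Subgroup.mem_subgroupOf] at this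
  have hcomm : ∀ a b : ↥θ.ker, a * b = b * a := fun a b => Subtype.ext (hk (Subtype.ext (by
    simp only [Subgroup.coe_mul, map_mul]
    exact S.diagonal_comm F (hker _ a.2) (hker _ b.2))))
  letI : CommGroup ↥θ.ker := { (inferInstance : Group ↥θ.ker) with mul_comm := hcomm }
  let p : ↥θ.ker →* ↥θ.ker := powMonoidHom l
  let ψ : ↥θ.ker →* V := φ.comp θ.ker.subtype
  have hψ : Nat.card ψ.range ≤ l ^ D.rank := by
    have hle : p.range ≤ ψ.ker := by
      rintro _ ⟨a, rfl⟩
      show φ (((a ^ l : ↥θ.ker)) : U) = 1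
      rw [SubmonoidClass.coe_pow, map_pow, hV]
    have h1 : ψ.ker.index ≤ p.range.index :=
      Nat.le_of_dvd (Nat.pos_of_ne_zero Subgroup.index_ne_zero_of_finite) (Subgroup.index_dvd_of_le hle)
    rw [Subgroup.index_ker] at h1
    have h2 : p.range.index = Nat.card p.ker := by
      have e1 := p.ker.card_mul_index
      have e2 := p.range.card_mul_index
      rw [Subgroup.index_ker] at e1
      rw [← e1, mul_comm (Nat.card p.ker)] at e2
      exact Nat.eq_of_mul_eq_mul_left Nat.card_pos e2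
    refine (h1.trans h2.le).trans ?_
    refine le_trans (Nat.card_le_card_of_injective (fun a : ↥p.ker =>
      (⟨((k (a.1 : U) : ↥(D.monomialSubgroup F)) : GL D.Idx F), hker _ a.1.2, by
        have ha : (a.1 : ↥θ.ker) ^ l = 1 := a.2
        have hb := congrArg Subtype.val ha
        rw [SubmonoidClass.coe_pow, OneMemClass.coe_one] at hb
        rw [← SubmonoidClass.coe_pow, ← map_pow, hb, map_one]; rfl⟩ :
        {t : GL D.Idx F // t ∈ D.diagonalSubgroup F ∧ t ^ l = 1})) ?_) hT
    intro a b h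
    have h' := congrArg Subtype.val h
    exact Subtype.ext (Subtype.ext (hk (Subtype.ext h')))
  have hrng : ψ.range = θ.ker.map φ := by
    rw [MonoidHom.range_comp, Subgroup.range_subtype]
  have hidx' : (θ.ker.map φ).index ≤ l := by
    refine le_trans (Nat.le_of_dvd (Nat.pos_of_ne_zero Subgroup.index_ne_zero_of_finite)
      (Subgroup.index_map_dvd θ.ker hφ)) ?_
    rwa [Subgroup.index_ker]
  have hc := (θ.ker.map φ).card_mul_index
  rw [hrng] at hψ
  have : l ^ d ≤ l ^ (D.rank + 1) := by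
    rw [← hd, ← hc, pow_succ]
    exact Nat.mul_le_mul hψ hidx'
  exact (Nat.pow_le_pow_iff_right hl.one_lt).mp this

/-- A minimal extension of an alternating group acts trivially on normal sections of `l`-power
order. -/
theorem prime_section (hW : ¬ l ^ 2 ∣ Nat.card ↥(CfsgLib.F4AltSection.weylPerms S))
    (hidx : ¬ l ∣ ((D.monomialSubgroup F).subgroupOf (D.group F)).index)
    (hT : Nat.card {t : GL D.Idx F // t ∈ D.diagonalSubgroup F ∧ t ^ l = 1} ≤ l ^ D.rank)
    {r : ℕ} (hr : 5 ≤ r) {H : Type*} [Group H] [Finite H] (i : H →* GL D.Idx F)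
    (hi : Function.Injective i) (hig : ∀ h, i h ∈ D.group F)
    (π : H →* ↥(alternatingGroup (Fin r)))
    (hπ : Function.Surjective π) (hmin : ∀ U : Subgroup H, U.map π = ⊤ → U = ⊤)
    (hAut : ∀ d ≤ D.rank + 1, ¬ Nat.card ↥(alternatingGroup (Fin r)) ∣
      ∏ k : Fin d, (l ^ d - l ^ (k : ℕ)))
    (U : Subgroup H) [hUn : U.Normal] (hU : IsPGroup l ↥U) (h : H) (u : H) (hu : u ∈ U) :
    ⁅h, u⁆ ∈ omegaPrime l U := by
  classical
  haveI := omegaPrime_normal l U
  let N : Subgroup ↥U := (omegaPrime l U).subgroupOf U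
  letI : CommGroup (↥U ⧸ N) :=
    { (inferInstance : Group (↥U ⧸ N)) with
      mul_comm := by
        intro a b
        obtain ⟨a, rfl⟩ := QuotientGroup.mk'_surjective N a
        obtain ⟨b, rfl⟩ := QuotientGroup.mk'_surjective N b
        show Commute _ _
        rw [← commutatorElement_eq_one_iff_commute, ← map_commutatorElement,
          QuotientGroup.mk'_apply, QuotientGroup.eq_one_iff, Subgroup.mem_subgroupOf]
        refine Subgroup.subset_closure (Or.inr ⟨a, a.2, b, b.2, ?_⟩)
        simp [commutatorElement_def] }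
  have hV : ∀ v : ↥U ⧸ N, v ^ l = 1 := by
    intro v
    obtain ⟨v, rfl⟩ := QuotientGroup.mk'_surjective N v
    rw [← map_pow, QuotientGroup.mk'_apply, QuotientGroup.eq_one_iff, Subgroup.mem_subgroupOf]
    exact Subgroup.subset_closure (Or.inl ⟨v, v.2, by simp⟩)
  obtain ⟨d, hdr, hd⟩ := prime_quotient S hW hidx hT hU (i.comp U.subtype)
    (hi.comp Subtype.val_injective) (fun x => hig _) (QuotientGroup.mk' N)
    (QuotientGroup.mk'_surjective N) hV
  have hNmap : ∀ g : H, N.map (MulAut.conjNormal g : MulAut ↥U).toMonoidHom = N := by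
    intro g
    apply le_antisymm
    · rintro _ ⟨x, hx, rfl⟩
      rw [SetLike.mem_coe, Subgroup.mem_subgroupOf] at hx
      rw [Subgroup.mem_subgroupOf]
      show ((MulAut.conjNormal g x : ↥U) : H) ∈ omegaPrime l U
      rw [MulAut.conjNormal_apply]
      exact (omegaPrime_normal l U).conj_mem _ hx g
    · intro x hx
      refine ⟨MulAut.conjNormal g⁻¹ x, ?_, by simp⟩
      rw [SetLike.mem_coe, Subgroup.mem_subgroupOf] at *
      rw [MulAut.conjNormal_apply]
      exact (omegaPrime_normal l U).conj_mem _ hx _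
  let Φ : H →* MulAut (↥U ⧸ N) :=
    { toFun := fun g => QuotientGroup.congr N N (MulAut.conjNormal g) (hNmap g)
      map_one' := MulEquiv.ext fun x => by
        obtain ⟨x, rfl⟩ := QuotientGroup.mk'_surjective N x
        simp
      map_mul' := fun g g' => MulEquiv.ext fun x => by
        obtain ⟨x, rfl⟩ := QuotientGroup.mk'_surjective N x
        simp only [map_mul, MulAut.mul_apply, QuotientGroup.mk'_apply, QuotientGroup.congr_mk]
        rfl }
  suffices hker : Φ.ker = ⊤ by
    have h1 : Φ h = 1 := MonoidHom.mem_ker.mp (hker ▸ Subgroup.mem_top h)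
    have h2 : QuotientGroup.mk' N (MulAut.conjNormal h ⟨u, hu⟩) = QuotientGroup.mk' N ⟨u, hu⟩ :=
      DFunLike.congr_fun h1 (QuotientGroup.mk' N ⟨u, hu⟩)
    rw [← mul_inv_eq_one, ← map_inv, ← map_mul, QuotientGroup.mk'_apply, QuotientGroup.eq_one_iff,
      Subgroup.mem_subgroupOf, Subgroup.coe_mul, Subgroup.coe_inv, MulAut.conjNormal_apply] at h2
    rwa [commutatorElement_def]
  refine hmin _ ?_
  haveI : IsSimpleGroup ↥(alternatingGroup (Fin r)) := alternatingGroup.isSimpleGroup (by simpa using hr)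
  rcases ((MonoidHom.normal_ker Φ).map π hπ).eq_bot_or_eq_top with hb | ht
  · exfalso
    have hle : Φ.ker ≤ π.ker := (Subgroup.map_eq_bot_iff _).mp hb
    have h1 := Subgroup.index_dvd_of_le hle
    rw [Subgroup.index_ker, Subgroup.index_ker, MonoidHom.range_eq_top.mpr hπ, Subgroup.card_top] at h1
    exact hAut d hdr ((h1.trans (Subgroup.card_subgroup_dvd_card _)).trans (card_mulAut_prime hV hd))
  · exact ht

/-- The kernel of a minimal extension of an alternating group inside a Chevalley group has order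
prime to `l`. -/
theorem kernel_prime_scale
    (hW : ¬ l ^ 2 ∣ Nat.card ↥(CfsgLib.F4AltSection.weylPerms S))
    (hidx : ¬ l ∣ ((D.monomialSubgroup F).subgroupOf (D.group F)).index)
    (hT : Nat.card {t : GL D.Idx F // t ∈ D.diagonalSubgroup F ∧ t ^ l = 1} ≤ l ^ D.rank)
    {r : ℕ} (hr : 5 ≤ r) {H : Type*} [Group H] [Finite H] (i : H →* GL D.Idx F)
    (hi : Function.Injective i) (hig : ∀ h, i h ∈ D.group F)
    (π : H →* ↥(alternatingGroup (Fin r))) (hπ : Function.Surjective π)
    (hmin : ∀ U : Subgroup H, U.map π = ⊤ → U = ⊤)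
    (hAut : ∀ d ≤ D.rank + 1, ¬ Nat.card ↥(alternatingGroup (Fin r)) ∣
      ∏ k : Fin d, (l ^ d - l ^ (k : ℕ)))
    {n : ℕ} (a : Fin n → ↥(alternatingGroup (Fin r)))
    (hA : ¬ l ∣ (Subgroup.closure (Set.range a)).index) (hal : ∀ k, a k ^ l = 1)
    (hcomm : ∀ j k, Commute (a j) (a k))
    (hscal : ∀ j k, j ≠ k → ∃ x, ∃ m : ℕ, x * a j * x⁻¹ = a j ∧ x * a k * x⁻¹ = a k ^ m ∧
      ¬ m ≡ 1 [MOD l]) :
    ¬ l ∣ Nat.card ↥π.ker := by
  classical
  have hlp : l.Prime := Fact.out
  haveI : IsSimpleGroup ↥(alternatingGroup (Fin r)) := alternatingGroup.isSimpleGroup (by simpa using hr)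
  have hA' : commutator ↥(alternatingGroup (Fin r)) = ⊤ :=
    commutator_alternatingGroup_eq_top (by simpa using hr)
  have hperf : commutator H = ⊤ := hmin _ (by
    rw [commutator_def, Subgroup.map_commutator, ← MonoidHom.range_eq_map,
      MonoidHom.range_eq_top.mpr hπ, ← commutator_def, hA'])
  -- the kernel lies in the Frattini subgroup
  have hfr : π.ker ≤ frattini H := by
    refine le_iInf₂ fun M hM => ?_
    by_contra hle
    have hlt : M < M ⊔ π.ker := lt_of_le_of_ne le_sup_left fun e => hle (e ▸ le_sup_right)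
    refine hM.1 (hmin M ?_)
    have htop := hM.2 _ hlt
    have := congrArg (Subgroup.map π) htop
    rwa [Subgroup.map_sup, (Subgroup.map_eq_bot_iff π.ker).mpr le_rfl, sup_bot_eq,
      ← MonoidHom.range_eq_map, MonoidHom.range_eq_top.mpr hπ] at this
  haveI := frattini_nilpotent (G := H)
  haveI : Group.IsNilpotent ↥π.ker :=
    (Group.isNilpotent_congr (Subgroup.subgroupOfEquivOfLe hfr)).mp inferInstance
  intro hdl
  obtain ⟨P⟩ : Nonempty (Sylow l ↥π.ker) := inferInstance
  haveI hPn : (P : Subgroup ↥π.ker).Normal :=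
    Sylow.normal_of_normalizerCondition Group.normalizerCondition_of_isNilpotent P
  haveI hPc : (P : Subgroup ↥π.ker).Characteristic := P.characteristic_of_normal hPn
  let K : Subgroup H := (P : Subgroup ↥π.ker).map π.ker.subtype
  haveI hKn : K.Normal := ConjAct.normal_of_characteristic_of_normal
  have hK : IsPGroup l ↥K := P.2.map _
  have hKne : K ≠ ⊥ := by
    intro h
    have : (P : Subgroup ↥π.ker) = ⊥ :=
      (Subgroup.map_eq_bot_iff_of_injective _ π.ker.subtype_injective).mp h
    exact P.ne_bot_of_dvd_card hdl this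
  -- it is central
  have hcent : ∀ m : ℕ, ∀ U : Subgroup H, U.Normal → IsPGroup l ↥U → Nat.card ↥U = m →
      U ≤ Subgroup.center H := by
    intro m
    induction m using Nat.strong_induction_on with
    | _ m ih =>
      intro U hUn hU hm
      rcases eq_or_ne U ⊥ with rfl | hne
      · exact bot_le
      haveI := hUn
      have hlt : Nat.card ↥(omegaPrime l U) < m := by
        refine hm ▸ lt_of_le_of_ne (Subgroup.card_le_of_le (omegaPrime_le l U)) fun e => ?_
        exact omegaPrime_lt hU hne (Subgroup.eq_of_le_of_card_ge (omegaPrime_le l U) e.ge)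
      have hΩ : omegaPrime l U ≤ Subgroup.center H :=
        ih _ hlt _ (omegaPrime_normal l U) (hU.to_le (omegaPrime_le l U)) rfl
      have hsec : ∀ g : H, ∀ u ∈ U, ⁅g, u⁆ ∈ omegaPrime l U := fun g u hu =>
        prime_section S hW hidx hT hr i hi hig π hπ hmin hAut U hU g u hu
      intro u hu
      rw [Subgroup.mem_center_iff]
      let f : H →* ↥(Subgroup.center H) :=
        MonoidHom.mk' (fun h => ⟨⁅h, u⁆, hΩ (hsec h u hu)⟩)
          fun g g' => Subtype.ext (by
            show ⁅g * g', u⁆ = ⁅g, u⁆ * ⁅g', u⁆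
            have hz : ⁅g', u⁆ ∈ Subgroup.center H := hΩ (hsec g' u hu)
            calc ⁅g * g', u⁆ = g * ⁅g', u⁆ * g⁻¹ * ⁅g, u⁆ := by
                  simp only [commutatorElement_def]; group
              _ = ⁅g', u⁆ * ⁅g, u⁆ := by
                  rw [Subgroup.mem_center_iff.mp hz g, mul_inv_cancel_right]
              _ = _ := (Subgroup.mem_center_iff.mp hz _).symm)
      intro h
      have hf : commutator H ≤ f.ker := by
        rw [commutator_def, Subgroup.commutator_le]
        intro p _ q _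
        rw [MonoidHom.mem_ker, map_commutatorElement, commutatorElement_eq_one_iff_mul_comm]
        exact Subtype.ext (Subgroup.mem_center_iff.mp (f q).2 _)
      rw [hperf] at hf
      have := congrArg Subtype.val (MonoidHom.mem_ker.mp (hf (Subgroup.mem_top h)))
      exact commutatorElement_eq_one_iff_mul_comm.mp this
  have hZ : K ≤ Subgroup.center H := hcent _ K hKn hK rfl
  have hKc : ∀ z ∈ K, ∀ g : H, Commute g z := fun z hz g => Subgroup.mem_center_iff.mp (hZ hz) g
  -- a Sylow subgroup above the preimage of `closure (range a)`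
  set A : Subgroup ↥(alternatingGroup (Fin r)) := Subgroup.closure (Set.range a) with hAdef
  have hAcomm : IsMulCommutative ↥A := Subgroup.isMulCommutative_closure (by
    rintro _ ⟨j, rfl⟩ _ ⟨k, rfl⟩
    exact hcomm j k)
  have hAl : IsPGroup l ↥A := by
    rintro ⟨y, hy⟩
    refine ⟨1, Subtype.ext ?_⟩
    rw [SubmonoidClass.coe_pow, pow_one]
    show y ^ l = 1
    induction hy using Subgroup.closure_induction with
    | mem y hy => obtain ⟨k, rfl⟩ := hy; exact hal k
    | one => exact one_pow l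
    | mul y z hy hz ey ez =>
      have hc : Commute y z :=
        congrArg Subtype.val (hAcomm.is_comm.comm (⟨y, hy⟩ : ↥A) ⟨z, hz⟩)
      rw [hc.mul_pow, ey, ez, one_mul]
    | inv y _ ey => rw [inv_pow, ey, inv_one]
  obtain ⟨Q⟩ : Nonempty (Sylow l ↥(A.comap π)) := inferInstance
  let Sy : Subgroup H := (Q : Subgroup ↥(A.comap π)).map (A.comap π).subtype
  have hSA : Sy ≤ A.comap π := Subgroup.map_subtype_le _
  have hSidx : ¬ l ∣ Sy.relIndex (A.comap π) := by
    rw [Subgroup.relIndex, show Sy.subgroupOf (A.comap π) = (Q : Subgroup ↥(A.comap π)) from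
      Subgroup.comap_map_eq_self_of_injective (A.comap π).subtype_injective _]
    exact Q.not_dvd_index
  have hSl : IsPGroup l ↥Sy := Q.2.map _
  have hKS : K ≤ Sy := by
    have hle : K ≤ A.comap π := by
      rintro _ ⟨z, -, rfl⟩
      show π (z : H) ∈ A
      rw [MonoidHom.mem_ker.mp z.2]
      exact one_mem _
    intro z hz
    obtain ⟨g, hg⟩ := F4AltSection.exists_conj_into (Sy.subgroupOf (A.comap π)) hSidx
      (P := K.subgroupOf (A.comap π)) hK.comap_subtype
    have := hg ⟨z, hle hz⟩ hz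
    rw [Subgroup.mem_subgroupOf] at this
    rw [Subgroup.coe_mul, Subgroup.coe_mul, Subgroup.coe_inv,
      Subgroup.mem_center_iff.mp (hZ hz) _, mul_inv_cancel_right] at this
    exact this
  have hSker : ∀ s ∈ Sy, π s = 1 → s ∈ K := by
    intro s hs hs1
    obtain ⟨m, hm⟩ := hSl ⟨s, hs⟩
    have hsK : (⟨s, hs1⟩ : ↥π.ker) ^ (l ^ m) = 1 := Subtype.ext (by
      simpa using congrArg Subtype.val hm)
    have hz : IsPGroup l ↥(Subgroup.zpowers (⟨s, hs1⟩ : ↥π.ker)) := by
      rintro ⟨y, k, rfl⟩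
      exact ⟨m, Subtype.ext (by
        show ((⟨s, hs1⟩ : ↥π.ker) ^ k) ^ (l ^ m) = 1
        rw [← zpow_natCast, ← zpow_mul, mul_comm, zpow_mul, zpow_natCast, hsK, one_zpow])⟩
    obtain ⟨R, hR⟩ := hz.exists_le_sylow
    haveI := Sylow.normal_of_normalizerCondition Group.normalizerCondition_of_isNilpotent R
    have : R = P := by
      obtain ⟨g, hg⟩ := MulAction.exists_smul_eq ↥π.ker P R
      rw [← hg]
      exact Sylow.smul_eq_iff_mem_normalizer.mpr
        ((Subgroup.normalizer_eq_top (H := (P : Subgroup ↥π.ker))).symm ▸ Subgroup.mem_top g)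
    exact ⟨⟨s, hs1⟩, this ▸ hR (Subgroup.mem_zpowers _), rfl⟩
  have hSmap : ∀ y ∈ A, ∃ s ∈ Sy, π s = y := by
    intro y hy
    let ρ : ↥(A.comap π) →* ↥A := (π.comp (A.comap π).subtype).codRestrict A fun z => z.2
    have hρ : Function.Surjective ρ := fun z => by
      obtain ⟨w, hw⟩ := hπ z.1
      exact ⟨⟨w, show π w ∈ A from hw ▸ z.2⟩, Subtype.ext hw⟩
    have hQ : (Q : Subgroup ↥(A.comap π)).map ρ = ⊤ := by
      obtain ⟨e, he⟩ := hAl.index ((Q : Subgroup ↥(A.comap π)).map ρ)
      refine Subgroup.index_eq_one.mp ?_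
      rcases e with _ | e
      · rw [he, pow_zero]
      · exact absurd ((dvd_pow_self l (Nat.succ_ne_zero e)).trans
          (he ▸ Subgroup.index_map_dvd (Q : Subgroup ↥(A.comap π)) hρ)) Q.not_dvd_index
    obtain ⟨s, hs, hsy⟩ : (⟨y, hy⟩ : ↥A) ∈ (Q : Subgroup ↥(A.comap π)).map ρ :=
      hQ ▸ Subgroup.mem_top _
    exact ⟨(s : H), ⟨s, hs, rfl⟩, congrArg Subtype.val hsy⟩
  choose y hyS hyπ using fun j => hSmap (a j) (Subgroup.subset_closure ⟨j, rfl⟩)
  -- the chosen lifts commute
  have hy : ∀ j k, y j * y k = y k * y j := by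
    intro j k
    rcases eq_or_ne j k with rfl | hjk
    · rfl
    obtain ⟨x, m₀, hxa, hxb, hm₀⟩ := hscal j k hjk
    let B : Subgroup ↥(alternatingGroup (Fin r)) := Subgroup.closure {a j, a k}
    have hBA : B ≤ A := Subgroup.closure_mono (by
      rintro z (rfl | rfl)
      · exact ⟨j, rfl⟩
      · exact ⟨k, rfl⟩)
    let T : Subgroup H := Sy ⊓ B.comap π
    have hTB : T ≤ B.comap π := inf_le_right
    have hTl : IsPGroup l ↥T := hSl.to_le inf_le_left
    have hTidx : ¬ l ∣ T.relIndex (B.comap π) := by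
      obtain ⟨R, hR⟩ := (hTl.comap_subtype (K := B.comap π)).exists_le_sylow
      have hRT : (R : Subgroup ↥(B.comap π)) = T.subgroupOf (B.comap π) := by
        refine le_antisymm ?_ hR
        -- a larger `l`-subgroup is conjugate into `Sy`, and has no further elements in the kernel
        intro z hz
        obtain ⟨s, hs, hsz⟩ := hSmap (π z) (hBA z.2)
        have hsT : s ∈ T := ⟨hs, show π s ∈ B from hsz ▸ z.2⟩
        have hsR : (⟨s, hsT.2⟩ : ↥(B.comap π)) ∈ (R : Subgroup ↥(B.comap π)) :=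
          hR (Subgroup.mem_subgroupOf.mpr hsT)
        have hw : (⟨s, hsT.2⟩ : ↥(B.comap π))⁻¹ * z ∈ (R : Subgroup ↥(B.comap π)) :=
          mul_mem (inv_mem hsR) hz
        obtain ⟨m, hm⟩ := R.2 ⟨_, hw⟩
        have hm' : (s⁻¹ * (z : H)) ^ (l ^ m) = 1 :=
          congrArg (fun t : ↥(R : Subgroup ↥(B.comap π)) => ((t : ↥(B.comap π)) : H)) hm
        have hw1 : π (s⁻¹ * (z : H)) = 1 := by rw [map_mul, map_inv, hsz, inv_mul_cancel]
        have hzl : IsPGroup l ↥(Subgroup.zpowers (⟨_, hw1⟩ : ↥π.ker)) := by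
          rintro ⟨t, e, rfl⟩
          exact ⟨m, Subtype.ext (by
            show ((⟨_, hw1⟩ : ↥π.ker) ^ e) ^ (l ^ m) = 1
            rw [← zpow_natCast, ← zpow_mul, mul_comm, zpow_mul, zpow_natCast,
              show (⟨_, hw1⟩ : ↥π.ker) ^ (l ^ m) = 1 from Subtype.ext (by simpa using hm'),
              one_zpow])⟩
        obtain ⟨R', hR'⟩ := hzl.exists_le_sylow
        haveI := Sylow.normal_of_normalizerCondition Group.normalizerCondition_of_isNilpotent R'
        have : R' = P := by
          obtain ⟨g, hg⟩ := MulAction.exists_smul_eq ↥π.ker P R'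
          rw [← hg]
          exact Sylow.smul_eq_iff_mem_normalizer.mpr
            ((Subgroup.normalizer_eq_top (H := (P : Subgroup ↥π.ker))).symm ▸ Subgroup.mem_top g)
        have hwS : s⁻¹ * (z : H) ∈ Sy :=
          hKS ⟨⟨_, hw1⟩, this ▸ hR' (Subgroup.mem_zpowers _), rfl⟩
        refine Subgroup.mem_subgroupOf.mpr ⟨?_, z.2⟩
        have := mul_mem hs hwS
        rwa [mul_inv_cancel_left] at this
      rw [Subgroup.relIndex, ← hRT]
      exact R.not_dvd_index
    obtain ⟨X, hX⟩ := hπ x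
    obtain ⟨h, hhB, hh⟩ := exists_normalizing_lift π B T hTl hTB hTidx X (by
      rw [hX]
      intro z hz
      induction hz using Subgroup.closure_induction with
      | mem z hz =>
        rcases hz with rfl | rfl
        · rw [hxa]; exact Subgroup.subset_closure (Or.inl rfl)
        · rw [hxb]; exact Subgroup.pow_mem _ (show a k ∈ B from Subgroup.subset_closure (Or.inr rfl)) _
      | one => simp
      | mul p q _ _ hp hq =>
        rw [show x * (p * q) * x⁻¹ = x * p * x⁻¹ * (x * q * x⁻¹) by group]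
        exact mul_mem hp hq
      | inv p _ hp =>
        rw [show x * p⁻¹ * x⁻¹ = (x * p * x⁻¹)⁻¹ by group]
        exact inv_mem hp)
    have hconj : ∀ z ∈ A, π h * z * (π h)⁻¹ = z := fun z hz => by
      have : Commute (π h) z :=
        congrArg Subtype.val (hAcomm.is_comm.comm (⟨π h, hBA hhB⟩ : ↥A) ⟨z, hz⟩)
      rw [this.eq, mul_inv_cancel_right]
    have hjT : y j ∈ T :=
      ⟨hyS j, show π (y j) ∈ B from (hyπ j).symm ▸ Subgroup.subset_closure (Or.inl rfl)⟩
    have hkT : y k ∈ T :=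
      ⟨hyS k, show π (y k) ∈ B from (hyπ k).symm ▸ Subgroup.subset_closure (Or.inr rfl)⟩
    let e := ⁅y j, y k⁆
    have heK : e ∈ K := hSker _ (by
        simp only [e, commutatorElement_def]
        exact mul_mem (mul_mem (mul_mem (hyS j) (hyS k)) (inv_mem (hyS j))) (inv_mem (hyS k)))
      (by
        simp only [e, map_commutatorElement, hyπ]
        exact commutatorElement_eq_one_iff_mul_comm.mpr (hcomm j k))
    have hec : ∀ g : H, g * e = e * g := fun g => (hKc _ heK g).eq
    set w := h * X with hw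
    obtain ⟨za, hza, hwa⟩ : ∃ z ∈ K, w * y j * w⁻¹ = y j * z := by
      refine ⟨(y j)⁻¹ * (w * y j * w⁻¹), hSker _ (mul_mem (inv_mem (hyS j)) (hh _ hjT).1) ?_, by group⟩
      rw [hw, map_mul, map_inv, show h * X * y j * (h * X)⁻¹ = h * (X * y j * X⁻¹) * h⁻¹ by group,
        map_mul, map_mul, map_mul, map_mul, map_inv, map_inv, hX, hyπ, hxa,
        hconj _ (Subgroup.subset_closure ⟨j, rfl⟩), inv_mul_cancel]
    obtain ⟨zb, hzb, hwb⟩ : ∃ z ∈ K, w * y k * w⁻¹ = y k ^ m₀ * z := by
      refine ⟨(y k ^ m₀)⁻¹ * (w * y k * w⁻¹),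
        hSker _ (mul_mem (inv_mem (pow_mem (hyS k) _)) (hh _ hkT).1) ?_, by group⟩
      rw [hw, map_mul, map_inv, map_pow,
        show h * X * y k * (h * X)⁻¹ = h * (X * y k * X⁻¹) * h⁻¹ by group,
        map_mul, map_mul, map_mul, map_mul, map_inv, map_inv, hX, hyπ, hxb,
        hconj _ (pow_mem (Subgroup.subset_closure ⟨k, rfl⟩ : a k ∈ A) m₀), inv_mul_cancel]
    have hee : e ^ m₀ = e := by
      have hza' : ∀ g : H, g * za = za * g := fun g => (hKc _ hza g).eq
      have hzb' : ∀ g : H, g * zb = zb * g := fun g => (hKc _ hzb g).eq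
      have hpow : ∀ p : ℕ, ⁅y j, y k ^ p⁆ = e ^ p := by
        intro p
        induction p with
        | zero => simp
        | succ p ih =>
          have hmul : ⁅y j, y k ^ p * y k⁆ = ⁅y j, y k ^ p⁆ * (y k ^ p * e * (y k ^ p)⁻¹) := by
            simp only [e, commutatorElement_def]; group
          rw [pow_succ, hmul, ih, hec (y k ^ p), mul_inv_cancel_right, pow_succ]
      symm
      calc e = w * e * w⁻¹ := by rw [hec w, mul_inv_cancel_right]
        _ = ⁅w * y j * w⁻¹, w * y k * w⁻¹⁆ := by simp only [e, commutatorElement_def]; group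
        _ = ⁅y j, y k ^ m₀⁆ := by
            rw [hwa, hwb]
            generalize y k ^ m₀ = q
            simp only [commutatorElement_def, mul_inv_rev]
            calc y j * za * (q * zb) * (za⁻¹ * (y j)⁻¹) * (zb⁻¹ * q⁻¹)
                = y j * (za * (q * zb)) * za⁻¹ * (y j)⁻¹ * zb⁻¹ * q⁻¹ := by group
              _ = y j * ((q * zb) * za) * za⁻¹ * (y j)⁻¹ * zb⁻¹ * q⁻¹ := by rw [← hza' (q * zb)]
              _ = y j * q * (zb * (y j)⁻¹) * zb⁻¹ * q⁻¹ := by group
              _ = y j * q * ((y j)⁻¹ * zb) * zb⁻¹ * q⁻¹ := by rw [← hzb' (y j)⁻¹]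
              _ = _ := by group
        _ = e ^ m₀ := hpow m₀
    have he1 : e = 1 := by
      obtain ⟨m, hm⟩ := hSl ⟨e, hKS heK⟩
      obtain ⟨i, -, hi⟩ := (Nat.dvd_prime_pow hlp).mp (orderOf_dvd_of_pow_eq_one
        (show e ^ (l ^ m) = 1 by simpa using congrArg Subtype.val hm))
      rcases i with _ | i
      · exact orderOf_eq_one_iff.mp (by rw [hi, pow_zero])
      · refine absurd ((pow_eq_pow_iff_modEq.mp (hee.trans (pow_one e).symm)).of_dvd ?_) hm₀
        exact hi ▸ dvd_pow_self l (Nat.succ_ne_zero i)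
    exact commutatorElement_eq_one_iff_mul_comm.mp he1
  -- so the Sylow subgroup is abelian
  have hScomm : ∀ s t : ↥Sy, s * t = t * s := by
    let T : Subgroup H := Subgroup.closure (Set.range y ∪ (K : Set H))
    have hTS : T ≤ Sy := (Subgroup.closure_le _).mpr (by
      rintro z (⟨j, rfl⟩ | hz)
      exacts [hyS j, hKS hz])
    have hT : Sy ≤ T := by
      intro s hs
      have hAT : A ≤ T.map π := (Subgroup.closure_le _).mpr (by
        rintro _ ⟨j, rfl⟩
        exact ⟨y j, Subgroup.subset_closure (Or.inl ⟨j, rfl⟩), hyπ j⟩)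
      obtain ⟨t, ht, hts⟩ := hAT (hSA hs)
      have : t⁻¹ * s ∈ K := hSker _ (mul_mem (inv_mem (hTS ht)) hs)
        (by rw [map_mul, map_inv, hts, inv_mul_cancel])
      have := mul_mem ht (Subgroup.subset_closure (Or.inr this) : t⁻¹ * s ∈ T)
      rwa [mul_inv_cancel_left] at this
    have hTc : IsMulCommutative ↥T := Subgroup.isMulCommutative_closure (by
      rintro p (⟨j, rfl⟩ | hp) q (⟨k, rfl⟩ | hq)
      · exact hy j k
      · exact (hKc _ hq _).eq
      · exact (hKc _ hp _).eq.symm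
      · exact (hKc _ hq _).eq)
    intro s t
    have := congrArg (fun z : ↥T => (z : H))
      (hTc.is_comm.comm (⟨s, hT s.2⟩ : ↥T) ⟨t, hT t.2⟩)
    exact Subtype.ext this
  letI : CommGroup ↥Sy := { (inferInstance : Group ↥Sy) with mul_comm := hScomm }
  -- transfer into it
  have hidxS : ¬ l ∣ Sy.index := by
    rw [← Subgroup.relIndex_mul_index hSA]
    refine fun hd => ?_
    rcases hlp.dvd_mul.mp hd with h1 | h1
    · exact hSidx h1
    · rw [Subgroup.index_comap_of_surjective _ hπ] at h1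
      exact hA h1
  obtain ⟨z, hz, hz1⟩ := (K.bot_or_exists_ne_one).resolve_left hKne
  let τ : H →* ↥Sy := MonoidHom.transfer (MonoidHom.id ↥Sy)
  have hτ : τ z = 1 := by
    have hle : commutator H ≤ τ.ker := by
      rw [commutator_def, Subgroup.commutator_le]
      intro p _ q _
      rw [MonoidHom.mem_ker, map_commutatorElement, commutatorElement_eq_one_iff_mul_comm]
      exact hScomm _ _
    rw [hperf] at hle
    exact MonoidHom.mem_ker.mp (hle (Subgroup.mem_top z))
  have key : ∀ (k : ℕ) (g₀ : H), g₀⁻¹ * z ^ k * g₀ ∈ Sy → g₀⁻¹ * z ^ k * g₀ = z ^ k := by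
    intro k g₀ _
    have : z ^ k ∈ Subgroup.center H := pow_mem (hZ hz) k
    rw [mul_assoc, ← Subgroup.mem_center_iff.mp this g₀, inv_mul_cancel_left]
  have hzI : z ^ Sy.index = 1 := by
    have := MonoidHom.transfer_eq_pow (MonoidHom.id ↥Sy) z key
    rw [show MonoidHom.transfer (MonoidHom.id ↥Sy) z = τ z from rfl, hτ] at this
    exact (congrArg Subtype.val this).symm
  obtain ⟨m, hm⟩ := hSl ⟨z, hKS hz⟩
  refine hz1 (orderOf_eq_one_iff.mp (Nat.eq_one_of_dvd_coprimes
    (Nat.Coprime.pow_left m (hlp.coprime_iff_not_dvd.mpr hidxS))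
    (orderOf_dvd_of_pow_eq_one (by simpa using congrArg Subtype.val hm))
    (orderOf_dvd_of_pow_eq_one hzI)))

/-- The kernel of a minimal extension of an alternating group inside a Chevalley group has order
prime to `l` (inverting elements). -/
theorem kernel_prime (hl : Odd l)
    (hW : ¬ l ^ 2 ∣ Nat.card ↥(CfsgLib.F4AltSection.weylPerms S))
    (hidx : ¬ l ∣ ((D.monomialSubgroup F).subgroupOf (D.group F)).index)
    (hT : Nat.card {t : GL D.Idx F // t ∈ D.diagonalSubgroup F ∧ t ^ l = 1} ≤ l ^ D.rank)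
    {r : ℕ} (hr : 5 ≤ r) {H : Type*} [Group H] [Finite H] (i : H →* GL D.Idx F)
    (hi : Function.Injective i) (hig : ∀ h, i h ∈ D.group F)
    (π : H →* ↥(alternatingGroup (Fin r))) (hπ : Function.Surjective π)
    (hmin : ∀ U : Subgroup H, U.map π = ⊤ → U = ⊤)
    (hAut : ∀ d ≤ D.rank + 1, ¬ Nat.card ↥(alternatingGroup (Fin r)) ∣
      ∏ k : Fin d, (l ^ d - l ^ (k : ℕ)))
    {n : ℕ} (a : Fin n → ↥(alternatingGroup (Fin r)))
    (hA : ¬ l ∣ (Subgroup.closure (Set.range a)).index) (hal : ∀ k, a k ^ l = 1)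
    (hcomm : ∀ j k, Commute (a j) (a k))
    (hinv : ∀ j k, j ≠ k → ∃ x, x * a j * x⁻¹ = a j ∧ x * a k * x⁻¹ = (a k)⁻¹) :
    ¬ l ∣ Nat.card ↥π.ker := by
  refine kernel_prime_scale S hW hidx hT hr i hi hig π hπ hmin hAut a hA hal hcomm fun j k hjk => ?_
  obtain ⟨x, hxj, hxk⟩ := hinv j k hjk
  refine ⟨x, l - 1, hxj, hxk.trans (inv_eq_of_mul_eq_one_right ?_), fun h => ?_⟩
  · rw [← pow_succ', Nat.sub_add_cancel (Fact.out : l.Prime).one_le, hal]
  · have h2 := (Fact.out : l.Prime).two_le
    obtain ⟨c, rfl⟩ := hl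
    rw [Nat.ModEq, Nat.mod_eq_of_lt (by omega), Nat.mod_eq_of_lt (by omega)] at h
    omega

end Chevalley

end CfsgLib.E7Alt65
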