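import Cfsg.Agent.F4AltSection.Lift
import Mathlib.GroupTheory.SpecificGroups.Alternating

/-!
Lifts of commuting elements of prime order through a kernel of order prime to that prime, and the
explicit cycles in the alternating groups of degree fourteen and fifteen used for the sections of
the group of type E7.
-/

set_option autoImplicit false

namespace CfsgLib.E7Alt65

section Lifts

variable {H Q : Type*} [Group H] [Finite H] [Group Q] {l : ℕ} [Fact l.Prime]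

/-- A subgroup of order a power of `l` of the target lifts isomorphically. -/
theorem exists_sylow_lift (π : H →* Q) (hπ : Function.Surjective π)
    (hK : ¬ l ∣ Nat.card ↥π.ker) (A : Subgroup Q) (hA : IsPGroup l ↥A) :
    ∃ S : Subgroup H, Set.InjOn π (S : Set H) ∧ S.map π = A := by
  classical
  haveI : Finite Q := Finite.of_surjective π hπ
  obtain ⟨R⟩ : Nonempty (Sylow l ↥(A.comap π)) := inferInstance
  set S : Subgroup H := (R : Subgroup ↥(A.comap π)).map (A.comap π).subtype with hS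
  have hSl : IsPGroup l ↥S := R.2.map _
  have hinj : Set.InjOn π (S : Set H) := by
    intro a ha b hb hab
    replace ha : a ∈ S := ha
    replace hb : b ∈ S := hb
    have hd : a * b⁻¹ ∈ S ⊓ π.ker :=
      Subgroup.mem_inf.mpr ⟨mul_mem ha (inv_mem hb), MonoidHom.mem_ker.mpr (by rw [map_mul, map_inv, hab, mul_inv_cancel])⟩
    have hbot : S ⊓ π.ker = ⊥ := by
      obtain ⟨n, hn⟩ := (hSl.to_le (inf_le_left : S ⊓ π.ker ≤ S)).exists_card_eq
      rcases n with _ | n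
      · exact Subgroup.card_eq_one.mp (by rw [hn, pow_zero])
      · exact absurd ((dvd_pow_self l n.succ_ne_zero).trans
          (hn ▸ Subgroup.card_dvd_of_le (inf_le_right : S ⊓ π.ker ≤ π.ker))) hK
    rw [hbot, Subgroup.mem_bot, mul_inv_eq_one] at hd
    exact hd
  refine ⟨S, hinj, ?_⟩
  let φ : ↥(A.comap π) →* ↥A := π.subgroupComap A
  have hφ : Function.Surjective φ := fun a => by
    obtain ⟨h, hh⟩ := hπ (a : Q)
    exact ⟨⟨h, show π h ∈ A by rw [hh]; exact a.2⟩, Subtype.ext hh⟩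
  have htop : (R : Subgroup ↥(A.comap π)).map φ = ⊤ := by
    rw [← Subgroup.index_eq_one]
    have h1 : ¬ l ∣ ((R : Subgroup ↥(A.comap π)).map φ).index := fun h =>
      R.not_dvd_index (h.trans (Subgroup.index_map_dvd _ hφ))
    obtain ⟨n, hn⟩ := hA.index ((R : Subgroup ↥(A.comap π)).map φ)
    rcases n with _ | n
    · simpa using hn
    · exact absurd (hn ▸ dvd_pow_self l n.succ_ne_zero) h1
  refine le_antisymm ?_ fun a ha => ?_
  · rintro _ ⟨s, hs, rfl⟩
    exact (Subgroup.map_subtype_le _ : S ≤ A.comap π) hs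
  · obtain ⟨r, hr, hr'⟩ := htop.ge (Subgroup.mem_top (⟨a, ha⟩ : ↥A))
    exact ⟨(r : H), Subgroup.mem_map_of_mem _ hr, congrArg Subtype.val hr'⟩

/-- Commuting elements of order dividing `l` lift to commuting ones. -/
theorem exists_pair (π : H →* Q) (hπ : Function.Surjective π) (hK : ¬ l ∣ Nat.card ↥π.ker)
    {a b : Q} (ha : a ^ l = 1) (hb : b ^ l = 1) (hab : Commute a b) :
    ∃ z z' : H, π z = a ∧ π z' = b ∧ z ^ l = 1 ∧ z' ^ l = 1 ∧ Commute z z' := by
  haveI : Finite Q := Finite.of_surjective π hπ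
  have hcomm : ∀ x ∈ ({a, b} : Set Q), ∀ y ∈ ({a, b} : Set Q), x * y = y * x := by
    rintro x (rfl | rfl) y (rfl | rfl)
    exacts [rfl, hab.eq, hab.symm.eq, rfl]
  letI := Subgroup.closureCommGroupOfComm hcomm
  have hexp : ∀ x ∈ Subgroup.closure ({a, b} : Set Q), x ^ l = 1 := by
    intro x hx
    induction hx using Subgroup.closure_induction with
    | mem x hx => rcases hx with rfl | rfl <;> assumption
    | one => exact one_pow l
    | mul x y hx hy h1 h2 =>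
      have : Commute x y := congrArg Subtype.val
        (mul_comm (⟨x, hx⟩ : ↥(Subgroup.closure ({a, b} : Set Q))) ⟨y, hy⟩)
      rw [this.mul_pow, h1, h2, one_mul]
    | inv x hx h1 => rw [inv_pow, h1, inv_one]
  have hA : IsPGroup l ↥(Subgroup.closure ({a, b} : Set Q)) := fun x =>
    ⟨1, Subtype.ext (by rw [pow_one]; exact hexp x x.2)⟩
  obtain ⟨S, hinj, hmap⟩ := exists_sylow_lift π hπ hK _ hA
  obtain ⟨z, hz, rfl⟩ := hmap.ge (Subgroup.subset_closure (Set.mem_insert a {b}))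
  obtain ⟨z', hz', rfl⟩ := hmap.ge (Subgroup.subset_closure (Set.mem_insert_of_mem (π z) rfl))
  refine ⟨z, z', rfl, rfl, hinj (pow_mem hz l) (one_mem S) (by rw [map_pow, ha, map_one]),
    hinj (pow_mem hz' l) (one_mem S) (by rw [map_pow, hb, map_one]), ?_⟩
  exact hinj (mul_mem hz hz') (mul_mem hz' hz) (by rw [map_mul, map_mul, hab.eq])

/-- Two elements of order `l` over the same element are conjugate under the kernel. -/
theorem exists_conj_ker (π : H →* Q) (hK : ¬ l ∣ Nat.card ↥π.ker) {z z1 : H} (hz : z ^ l = 1)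
    (hz1 : z1 ^ l = 1) (he : π z1 = π z) (hne : π z ≠ 1) :
    ∃ k : H, π k = 1 ∧ k * z1 * k⁻¹ = z := by
  classical
  have hl : l.Prime := Fact.out
  have hzne : z ≠ 1 := fun h => hne (by rw [h, map_one])
  have hoz : orderOf z = l := orderOf_eq_prime hz hzne
  have hoa : orderOf (π z) = l := orderOf_eq_prime (by rw [← map_pow, hz, map_one]) hne
  set A := Subgroup.zpowers (π z) with hA
  set M := A.comap π with hM
  have hzM : Subgroup.zpowers z ≤ M := Subgroup.zpowers_le.mpr (Subgroup.mem_zpowers _)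
  have hz1M : z1 ∈ M := by
    show π z1 ∈ A
    rw [he]; exact Subgroup.mem_zpowers _
  have hcard : Nat.card ↥M ∣ Nat.card ↥π.ker * l := by
    have h1 := (π.comp M.subtype).ker.card_mul_index
    rw [← h1, Subgroup.index_ker]
    refine Nat.mul_dvd_mul (Subgroup.card_dvd_of_injective
      ((M.subtype.comp (π.comp M.subtype).ker.subtype).codRestrict π.ker fun k =>
        MonoidHom.mem_ker.mp k.2) fun k j h =>
          Subtype.ext (Subtype.ext (congrArg (fun x : ↥π.ker => (x : H)) h))) ?_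
    rw [← hoa, ← Nat.card_zpowers]
    refine Subgroup.card_dvd_of_le ?_
    rintro _ ⟨m, rfl⟩
    exact m.2
  have hidx : ¬ l ∣ ((Subgroup.zpowers z).subgroupOf M).index := by
    intro h5
    have h2 := ((Subgroup.zpowers z).subgroupOf M).card_mul_index
    rw [Nat.card_congr (Subgroup.subgroupOfEquivOfLe hzM).toEquiv, Nat.card_zpowers, hoz] at h2
    rw [← h2, mul_comm (Nat.card ↥π.ker)] at hcard
    exact hK (h5.trans ((Nat.mul_dvd_mul_iff_left hl.pos).mp hcard))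
  obtain ⟨g, hg⟩ := F4AltSection.exists_conj_into _ hidx
    (P := (Subgroup.zpowers z1).subgroupOf M) (IsPGroup.comap_subtype (IsPGroup.of_card (n := 1) (by
      rw [Nat.card_zpowers, pow_one]
      exact orderOf_eq_prime hz1 fun h => hne (by rw [← he, h, map_one]))))
  have hmem := hg ⟨z1, hz1M⟩ (Subgroup.mem_subgroupOf.mpr (Subgroup.mem_zpowers _))
  rw [Subgroup.mem_subgroupOf] at hmem
  simp only [Subgroup.coe_mul, Subgroup.coe_inv] at hmem
  obtain ⟨j, hj⟩ := (mem_powers_iff_mem_zpowers.mpr hmem :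
    ∃ j : ℕ, z ^ j = _)
  obtain ⟨i, hi⟩ := ((orderOf_pos_iff.mp (hoa ▸ hl.pos)).mem_powers_iff_mem_zpowers.mpr g.2 :
    ∃ i : ℕ, π z ^ i = _)
  replace hj : z ^ j = (g : H) * z1 * (g : H)⁻¹ := hj
  replace hi : π z ^ i = π g := hi
  have hπj : π z ^ j = π z ^ 1 := by
    rw [← map_pow, hj, map_mul, map_mul, map_inv, he, ← hi, pow_one,
      (Commute.pow_self (π z) i).eq, mul_inv_cancel_right]
  rw [pow_eq_pow_iff_modEq, hoa, ← hoz, ← pow_eq_pow_iff_modEq, hj, pow_one] at hπj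
  refine ⟨(z ^ i)⁻¹ * g, by rw [map_mul, map_inv, map_pow, hi, inv_mul_cancel], ?_⟩
  calc (z ^ i)⁻¹ * (g : H) * z1 * ((z ^ i)⁻¹ * (g : H))⁻¹
      = (z ^ i)⁻¹ * ((g : H) * z1 * (g : H)⁻¹) * z ^ i := by group
    _ = z := by rw [hπj, mul_assoc, (Commute.self_pow z i).eq, inv_mul_cancel_left]

/-- An element over which a commuting pair is carried to another lifts to one carrying a lifted
pair to a lifted pair. -/
theorem exists_lift_pair (π : H →* Q) (hπ : Function.Surjective π) (hK : ¬ l ∣ Nat.card ↥π.ker)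
    {z z' z1 z1' : H} (hz : z ^ l = 1) (hz' : z' ^ l = 1) (hz1 : z1 ^ l = 1) (hz1' : z1' ^ l = 1)
    (hc : Commute z z') (hc1 : Commute z1 z1') (hne : π z1 ≠ 1) (hne' : π z1' ≠ 1) (q : Q)
    (hq : q * π z * q⁻¹ = π z1) (hq' : q * π z' * q⁻¹ = π z1') :
    ∃ y : H, π y = q ∧ y * z * y⁻¹ = z1 ∧ y * z' * y⁻¹ = z1' := by
  obtain ⟨y₀, rfl⟩ := hπ q
  obtain ⟨k, hk, hk1⟩ := exists_conj_ker π hK hz1 (z1 := y₀ * z * y₀⁻¹)
    (by rw [conj_pow, hz]; group) (by rw [map_mul, map_mul, map_inv, hq]) hne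
  set C := Subgroup.centralizer ({z1} : Set H) with hC
  have e1 : (k * y₀) * z * (k * y₀)⁻¹ = z1 := by rw [← hk1]; group
  have hw : (k * y₀) * z' * (k * y₀)⁻¹ ∈ C := by
    rw [Subgroup.mem_centralizer_singleton_iff, ← e1]
    calc (k * y₀) * z' * (k * y₀)⁻¹ * ((k * y₀) * z * (k * y₀)⁻¹)
        = (k * y₀) * (z' * z) * (k * y₀)⁻¹ := by group
      _ = (k * y₀) * (z * z') * (k * y₀)⁻¹ := by rw [hc.eq]
      _ = _ := by group
  have hz1C : z1' ∈ C := Subgroup.mem_centralizer_singleton_iff.mpr hc1.symm.eq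
  have hKC : ¬ l ∣ Nat.card ↥(π.comp C.subtype).ker := fun h =>
    hK (h.trans (Subgroup.card_dvd_of_injective
      ((C.subtype.comp (π.comp C.subtype).ker.subtype).codRestrict π.ker fun k =>
        MonoidHom.mem_ker.mp k.2) fun k j h' =>
          Subtype.ext (Subtype.ext (congrArg (fun x : ↥π.ker => (x : H)) h'))))
  obtain ⟨g, hg, hg1⟩ := exists_conj_ker (π.comp C.subtype) hKC (z := ⟨z1', hz1C⟩)
    (z1 := ⟨_, hw⟩) (Subtype.ext hz1')
    (Subtype.ext (show ((k * y₀) * z' * (k * y₀)⁻¹) ^ l = 1 by rw [conj_pow, hz']; group))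
    (show π ((k * y₀) * z' * (k * y₀)⁻¹) = π z1' by
      simp only [map_mul, map_inv, hk, one_mul]; exact hq')
    hne'
  have hg1' := congrArg Subtype.val hg1
  simp only [Subgroup.coe_mul, Subgroup.coe_inv] at hg1'
  have hgz : (g : H) * z1 * (g : H)⁻¹ = z1 := by
    have := Subgroup.mem_centralizer_singleton_iff.mp g.2
    rw [this, mul_inv_cancel_right]
  refine ⟨(g : H) * (k * y₀), ?_, ?_, ?_⟩
  · have : π (g : H) = 1 := hg
    rw [map_mul, map_mul, this, hk, one_mul, one_mul]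
  · calc (g : H) * (k * y₀) * z * ((g : H) * (k * y₀))⁻¹
        = (g : H) * ((k * y₀) * z * (k * y₀)⁻¹) * (g : H)⁻¹ := by group
      _ = z1 := by rw [e1, hgz]
  · rw [← hg1']; group

/-- An element centralising the image of an element of order `l` lifts into its centraliser. -/
theorem exists_central_lift (π : H →* Q) (hπ : Function.Surjective π)
    (hK : ¬ l ∣ Nat.card ↥π.ker) {z : H} (hz : z ^ l = 1) (hne : π z ≠ 1) {q : Q}
    (hq : Commute q (π z)) : ∃ y : H, π y = q ∧ Commute y z := by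
  obtain ⟨y₀, rfl⟩ := hπ q
  obtain ⟨k, hk, hk1⟩ := exists_conj_ker π hK hz (z1 := y₀ * z * y₀⁻¹)
    (by rw [conj_pow, hz]; group)
    (by rw [map_mul, map_mul, map_inv, hq.eq, mul_inv_cancel_right]) hne
  refine ⟨k * y₀, by rw [map_mul, hk, one_mul], ?_⟩
  show k * y₀ * z = z * (k * y₀)
  calc k * y₀ * z = (k * (y₀ * z * y₀⁻¹) * k⁻¹) * (k * y₀) := by group
    _ = z * (k * y₀) := by rw [hk1]

/-- An element of order `l` lies in a normal subgroup if its image lies in the image. -/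
theorem mem_normal_of_conj (π : H →* Q) (hK : ¬ l ∣ Nat.card ↥π.ker) {N : Subgroup H} [N.Normal]
    {z : H} (hz : z ^ l = 1) (hne : π z ≠ 1) (hmem : π z ∈ N.map π) : z ∈ N := by
  have hl : l.Prime := Fact.out
  obtain ⟨n, hn, hπn⟩ := hmem
  set m := Nat.card ↥π.ker with hm
  obtain ⟨c, hc⟩ := Nat.exists_mul_mod_eq_one_of_coprime
    ((hl.coprime_iff_not_dvd.mpr hK).symm) hl.one_lt
  have hker : n ^ l ∈ π.ker := by
    rw [MonoidHom.mem_ker, map_pow, hπn, ← map_pow, hz, map_one]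
  have hnm : (n ^ (m * c)) ^ l = 1 := by
    have h1 : (n ^ l) ^ m = 1 := congrArg Subtype.val (pow_card_eq_one' (x := (⟨n ^ l, hker⟩ : ↥π.ker)))
    rw [← pow_mul, mul_comm (m * c) l, pow_mul, pow_mul, h1, one_pow]
  have hzl : orderOf (π z) = l := orderOf_eq_prime (by rw [← map_pow, hz, map_one]) hne
  obtain ⟨k, -, hk⟩ := exists_conj_ker π hK hz (z1 := n ^ (m * c)) hnm (by
    rw [map_pow, hπn, pow_eq_pow_mod (a := π z) (m * c) (n := l) (hzl ▸ pow_orderOf_eq_one _),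
      hc.2, pow_one]) hne
  rw [← hk]
  exact ‹N.Normal›.conj_mem _ (pow_mem hn _) k

end Lifts

section Fourteen

/-- The cycle `(0 … 6)` of fourteen points. -/
def a14Perm : Equiv.Perm (Fin 14) :=
  ⟨![1, 2, 3, 4, 5, 6, 0, 7, 8, 9, 10, 11, 12, 13], ![6, 0, 1, 2, 3, 4, 5, 7, 8, 9, 10, 11, 12, 13],
    by decide +kernel, by decide +kernel⟩

/-- The cycle `(7 … 13)` of fourteen points. -/
def b14Perm : Equiv.Perm (Fin 14) :=
  ⟨![0, 1, 2, 3, 4, 5, 6, 8, 9, 10, 11, 12, 13, 7], ![0, 1, 2, 3, 4, 5, 6, 13, 7, 8, 9, 10, 11, 12],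
    by decide +kernel, by decide +kernel⟩

/-- The cycle `(0 … 6)` as an even permutation. -/
def a14 : ↥(alternatingGroup (Fin 14)) :=
  ⟨a14Perm, Equiv.Perm.mem_alternatingGroup.mpr (by decide +kernel)⟩

/-- The cycle `(7 … 13)` as an even permutation. -/
def b14 : ↥(alternatingGroup (Fin 14)) :=
  ⟨b14Perm, Equiv.Perm.mem_alternatingGroup.mpr (by decide +kernel)⟩

theorem a14_b14_facts :
    a14 ^ 7 = 1 ∧ b14 ^ 7 = 1 ∧ a14 * b14 = b14 * a14 ∧ a14 ≠ 1 ∧ b14 ≠ 1 := by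
  decide +kernel

theorem a14_b14_pow (i j : Fin 7) :
    ((((a14 ^ (i : ℕ) * b14 ^ (j : ℕ)) : ↥(alternatingGroup (Fin 14))) : Equiv.Perm (Fin 14)) 0 : ℕ)
        = i ∧
      ((((a14 ^ (i : ℕ) * b14 ^ (j : ℕ)) : ↥(alternatingGroup (Fin 14))) : Equiv.Perm (Fin 14)) 7 : ℕ)
        = 7 + j := by
  revert i j
  decide +kernel

/-- An element fixing `a14` and squaring `b14`. -/
theorem exists_y1 : ∃ y : ↥(alternatingGroup (Fin 14)),
    y * a14 * y⁻¹ = a14 ∧ y * b14 * y⁻¹ = b14 ^ 2 := by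
  let y₀ : Equiv.Perm (Fin 14) :=
    ⟨![0, 1, 2, 3, 4, 5, 6, 7, 9, 11, 13, 8, 10, 12], ![0, 1, 2, 3, 4, 5, 6, 7, 11, 8, 12, 9, 13, 10],
      by decide +kernel, by decide +kernel⟩
  refine ⟨⟨y₀, Equiv.Perm.mem_alternatingGroup.mpr (by decide +kernel)⟩, ?_⟩
  decide +kernel

/-- An element squaring `a14` and fixing `b14`. -/
theorem exists_y2 : ∃ y : ↥(alternatingGroup (Fin 14)),
    y * a14 * y⁻¹ = a14 ^ 2 ∧ y * b14 * y⁻¹ = b14 := by
  let y₀ : Equiv.Perm (Fin 14) :=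
    ⟨![0, 2, 4, 6, 1, 3, 5, 7, 8, 9, 10, 11, 12, 13], ![0, 4, 1, 5, 2, 6, 3, 7, 8, 9, 10, 11, 12, 13],
      by decide +kernel, by decide +kernel⟩
  refine ⟨⟨y₀, Equiv.Perm.mem_alternatingGroup.mpr (by decide +kernel)⟩, ?_⟩
  decide +kernel

/-- An element cubing both cycles. -/
theorem exists_y3 : ∃ y : ↥(alternatingGroup (Fin 14)),
    y * a14 * y⁻¹ = a14 ^ 3 ∧ y * b14 * y⁻¹ = b14 ^ 3 := by
  let y₀ : Equiv.Perm (Fin 14) :=
    ⟨![0, 3, 6, 2, 5, 1, 4, 7, 10, 13, 9, 12, 8, 11], ![0, 5, 3, 1, 6, 4, 2, 7, 12, 10, 8, 13, 11, 9],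
      by decide +kernel, by decide +kernel⟩
  refine ⟨⟨y₀, Equiv.Perm.mem_alternatingGroup.mpr (by decide +kernel)⟩, ?_⟩
  decide +kernel

/-- An element carrying `a14` to `b14` and `b14` to the cube of `a14`. -/
theorem exists_ys : ∃ y : ↥(alternatingGroup (Fin 14)),
    y * a14 * y⁻¹ = b14 ∧ y * b14 * y⁻¹ = a14 ^ 3 := by
  let y₀ : Equiv.Perm (Fin 14) :=
    ⟨![7, 8, 9, 10, 11, 12, 13, 0, 3, 6, 2, 5, 1, 4], ![7, 12, 10, 8, 13, 11, 9, 0, 1, 2, 3, 4, 5, 6],
      by decide +kernel, by decide +kernel⟩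
  refine ⟨⟨y₀, Equiv.Perm.mem_alternatingGroup.mpr (by decide +kernel)⟩, ?_⟩
  decide +kernel

theorem exists_scale14 : ∀ j k : Fin 2, j ≠ k → ∃ x : ↥(alternatingGroup (Fin 14)), ∃ m : ℕ,
    x * ![a14, b14] j * x⁻¹ = ![a14, b14] j ∧ x * ![a14, b14] k * x⁻¹ = ![a14, b14] k ^ m ∧
      ¬ m ≡ 1 [MOD 7] := by
  obtain ⟨y, h1, h2⟩ := exists_y1
  obtain ⟨w, h3, h4⟩ := exists_y2
  intro j k hjk
  fin_cases j <;> fin_cases k
  · exact absurd rfl hjk
  · exact ⟨y, 2, h1, h2, by decide⟩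
  · exact ⟨w, 2, h4, h3, by decide⟩
  · exact absurd rfl hjk

theorem commute14 : ∀ j k : Fin 2, Commute (![a14, b14] j) (![a14, b14] k) := by
  intro j k
  fin_cases j <;> fin_cases k
  · exact Commute.refl a14
  · exact a14_b14_facts.2.2.1
  · exact a14_b14_facts.2.2.1.symm
  · exact Commute.refl b14

theorem pow14 : ∀ k : Fin 2, ![a14, b14] k ^ 7 = 1 := by
  intro k
  fin_cases k
  · exact a14_b14_facts.1
  · exact a14_b14_facts.2.1

theorem not_seven_dvd_index :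
    ¬ 7 ∣ (Subgroup.closure (Set.range ![a14, b14])).index := by
  classical
  haveI : Fact (Nat.Prime 7) := ⟨by norm_num⟩
  set C := Subgroup.closure (Set.range ![a14, b14]) with hC
  have hcomm : ∀ x ∈ Set.range ![a14, b14], ∀ y ∈ Set.range ![a14, b14], x * y = y * x := by
    rintro x ⟨j, rfl⟩ y ⟨k, rfl⟩
    exact (commute14 j k).eq
  letI := Subgroup.closureCommGroupOfComm hcomm
  have hp : IsPGroup 7 ↥C := by
    rintro ⟨x, hx⟩
    refine ⟨1, Subtype.ext ?_⟩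
    show x ^ 7 ^ 1 = 1
    rw [pow_one]
    induction hx using Subgroup.closure_induction with
    | mem x hx => obtain ⟨k, rfl⟩ := hx; exact pow14 k
    | one => exact one_pow 7
    | mul x y hx hy h1 h2 =>
      have : Commute x y := congrArg Subtype.val (mul_comm (⟨x, hx⟩ : ↥C) ⟨y, hy⟩)
      rw [this.mul_pow, h1, h2, one_mul]
    | inv x hx h1 => rw [inv_pow, h1, inv_one]
  have hge : 49 ≤ Nat.card ↥C := by
    have hmem : ∀ p : Fin 7 × Fin 7, a14 ^ (p.1 : ℕ) * b14 ^ (p.2 : ℕ) ∈ C := fun p =>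
      mul_mem (pow_mem (Subgroup.subset_closure (Set.mem_range_self (f := ![a14, b14]) 0)) _)
        (pow_mem (Subgroup.subset_closure (Set.mem_range_self (f := ![a14, b14]) 1)) _)
    have := Nat.card_le_card_of_injective (fun p => (⟨_, hmem p⟩ : ↥C)) fun p q h => by
      have h' : a14 ^ (p.1 : ℕ) * b14 ^ (p.2 : ℕ) = a14 ^ (q.1 : ℕ) * b14 ^ (q.2 : ℕ) :=
        congrArg Subtype.val h
      have h1 := a14_b14_pow p.1 p.2
      have h2 := a14_b14_pow q.1 q.2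
      rw [h'] at h1
      exact Prod.ext (Fin.ext (h1.1.symm.trans h2.1)) (Fin.ext (by omega))
    simpa using this
  obtain ⟨n, hn⟩ := hp.exists_card_eq
  have hn2 : 2 ≤ n := by
    by_contra h
    interval_cases n <;> omega
  intro h7
  have := Nat.mul_dvd_mul (hn ▸ pow_dvd_pow 7 hn2 : 7 ^ 2 ∣ Nat.card ↥C) h7
  rw [C.card_mul_index, nat_card_alternatingGroup, Nat.card_eq_fintype_card, Fintype.card_fin]
    at this
  norm_num [Nat.factorial] at this

end Fourteen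

section Fifteen

/-- The cycle `(0 … 4)` of fifteen points. -/
def a15Perm : Equiv.Perm (Fin 15) :=
  ⟨![1, 2, 3, 4, 0, 5, 6, 7, 8, 9, 10, 11, 12, 13, 14], ![4, 0, 1, 2, 3, 5, 6, 7, 8, 9, 10, 11, 12, 13, 14],
    by decide +kernel, by decide +kernel⟩

/-- The cycle `(5 … 9)` of fifteen points. -/
def b15Perm : Equiv.Perm (Fin 15) :=
  ⟨![0, 1, 2, 3, 4, 6, 7, 8, 9, 5, 10, 11, 12, 13, 14], ![0, 1, 2, 3, 4, 9, 5, 6, 7, 8, 10, 11, 12, 13, 14],
    by decide +kernel, by decide +kernel⟩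

/-- The cycle `(10 … 14)` of fifteen points. -/
def c15Perm : Equiv.Perm (Fin 15) :=
  ⟨![0, 1, 2, 3, 4, 5, 6, 7, 8, 9, 11, 12, 13, 14, 10], ![0, 1, 2, 3, 4, 5, 6, 7, 8, 9, 14, 10, 11, 12, 13],
    by decide +kernel, by decide +kernel⟩

/-- The cycle `(0 … 4)` as an even permutation. -/
def a15 : ↥(alternatingGroup (Fin 15)) :=
  ⟨a15Perm, Equiv.Perm.mem_alternatingGroup.mpr (by decide +kernel)⟩

/-- The cycle `(5 … 9)` as an even permutation. -/
def b15 : ↥(alternatingGroup (Fin 15)) :=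
  ⟨b15Perm, Equiv.Perm.mem_alternatingGroup.mpr (by decide +kernel)⟩

/-- The cycle `(10 … 14)` as an even permutation. -/
def c15 : ↥(alternatingGroup (Fin 15)) :=
  ⟨c15Perm, Equiv.Perm.mem_alternatingGroup.mpr (by decide +kernel)⟩

theorem a15_b15_facts : a15 ^ 5 = 1 ∧ b15 ^ 5 = 1 ∧ c15 ^ 5 = 1 ∧ a15 * b15 = b15 * a15 ∧
    a15 * c15 = c15 * a15 ∧ b15 * c15 = c15 * b15 ∧ a15 ≠ 1 ∧ b15 ≠ 1 ∧ c15 ≠ 1 := by
  decide +kernel

theorem a15_b15_pow (i j k : Fin 5) :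
    ((((a15 ^ (i : ℕ) * b15 ^ (j : ℕ) * c15 ^ (k : ℕ)) : ↥(alternatingGroup (Fin 15))) :
        Equiv.Perm (Fin 15)) 0 : ℕ) = i ∧
      ((((a15 ^ (i : ℕ) * b15 ^ (j : ℕ) * c15 ^ (k : ℕ)) : ↥(alternatingGroup (Fin 15))) :
        Equiv.Perm (Fin 15)) 5 : ℕ) = 5 + j ∧
      ((((a15 ^ (i : ℕ) * b15 ^ (j : ℕ) * c15 ^ (k : ℕ)) : ↥(alternatingGroup (Fin 15))) :
        Equiv.Perm (Fin 15)) 10 : ℕ) = 10 + k := by
  revert i j k
  decide +kernel

/-- An element squaring `a15` and `b15`. -/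
theorem exists_y15 : ∃ y : ↥(alternatingGroup (Fin 15)),
    y * a15 * y⁻¹ = a15 ^ 2 ∧ y * b15 * y⁻¹ = b15 ^ 2 := by
  let y₀ : Equiv.Perm (Fin 15) :=
    ⟨![0, 2, 4, 1, 3, 5, 7, 9, 6, 8, 10, 11, 12, 13, 14], ![0, 3, 1, 4, 2, 5, 8, 6, 9, 7, 10, 11, 12, 13, 14],
      by decide +kernel, by decide +kernel⟩
  refine ⟨⟨y₀, Equiv.Perm.mem_alternatingGroup.mpr (by decide +kernel)⟩, ?_⟩
  decide +kernel

theorem exists_scale15 : ∀ j k : Fin 3, j ≠ k → ∃ x : ↥(alternatingGroup (Fin 15)), ∃ m : ℕ,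
    x * ![a15, b15, c15] j * x⁻¹ = ![a15, b15, c15] j ∧
      x * ![a15, b15, c15] k * x⁻¹ = ![a15, b15, c15] k ^ m ∧ ¬ m ≡ 1 [MOD 5] := by
  let u₀ : Equiv.Perm (Fin 15) :=
    ⟨![0, 4, 3, 2, 1, 5, 6, 7, 8, 9, 10, 11, 12, 13, 14], ![0, 4, 3, 2, 1, 5, 6, 7, 8, 9, 10, 11, 12, 13, 14],
      by decide +kernel, by decide +kernel⟩
  let v₀ : Equiv.Perm (Fin 15) :=
    ⟨![0, 1, 2, 3, 4, 5, 9, 8, 7, 6, 10, 11, 12, 13, 14], ![0, 1, 2, 3, 4, 5, 9, 8, 7, 6, 10, 11, 12, 13, 14],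
      by decide +kernel, by decide +kernel⟩
  let w₀ : Equiv.Perm (Fin 15) :=
    ⟨![0, 1, 2, 3, 4, 5, 6, 7, 8, 9, 10, 14, 13, 12, 11], ![0, 1, 2, 3, 4, 5, 6, 7, 8, 9, 10, 14, 13, 12, 11],
      by decide +kernel, by decide +kernel⟩
  let u : ↥(alternatingGroup (Fin 15)) := ⟨u₀, Equiv.Perm.mem_alternatingGroup.mpr (by decide +kernel)⟩
  let v : ↥(alternatingGroup (Fin 15)) := ⟨v₀, Equiv.Perm.mem_alternatingGroup.mpr (by decide +kernel)⟩
  let w : ↥(alternatingGroup (Fin 15)) := ⟨w₀, Equiv.Perm.mem_alternatingGroup.mpr (by decide +kernel)⟩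
  have h : (u * a15 * u⁻¹ = a15 ^ 4 ∧ u * b15 * u⁻¹ = b15 ∧ u * c15 * u⁻¹ = c15) ∧
      (v * a15 * v⁻¹ = a15 ∧ v * b15 * v⁻¹ = b15 ^ 4 ∧ v * c15 * v⁻¹ = c15) ∧
      (w * a15 * w⁻¹ = a15 ∧ w * b15 * w⁻¹ = b15 ∧ w * c15 * w⁻¹ = c15 ^ 4) := by decide +kernel
  intro j k hjk
  fin_cases j <;> fin_cases k
  · exact absurd rfl hjk
  · exact ⟨v, 4, h.2.1.1, h.2.1.2.1, by decide⟩
  · exact ⟨w, 4, h.2.2.1, h.2.2.2.2, by decide⟩
  · exact ⟨u, 4, h.1.2.1, h.1.1, by decide⟩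
  · exact absurd rfl hjk
  · exact ⟨w, 4, h.2.2.2.1, h.2.2.2.2, by decide⟩
  · exact ⟨u, 4, h.1.2.2, h.1.1, by decide⟩
  · exact ⟨v, 4, h.2.1.2.2, h.2.1.2.1, by decide⟩
  · exact absurd rfl hjk

theorem commute15 : ∀ j k : Fin 3, Commute (![a15, b15, c15] j) (![a15, b15, c15] k) := by
  obtain ⟨-, -, -, h1, h2, h3, -⟩ := a15_b15_facts
  intro j k
  fin_cases j <;> fin_cases k
  exacts [Commute.refl _, h1, h2, h1.symm, Commute.refl _, h3, h2.symm, h3.symm, Commute.refl _]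

theorem pow15 : ∀ k : Fin 3, ![a15, b15, c15] k ^ 5 = 1 := by
  intro k
  fin_cases k
  exacts [a15_b15_facts.1, a15_b15_facts.2.1, a15_b15_facts.2.2.1]

theorem not_five_dvd_index :
    ¬ 5 ∣ (Subgroup.closure (Set.range ![a15, b15, c15])).index := by
  classical
  haveI : Fact (Nat.Prime 5) := ⟨by norm_num⟩
  set C := Subgroup.closure (Set.range ![a15, b15, c15]) with hC
  have hcomm : ∀ x ∈ Set.range ![a15, b15, c15], ∀ y ∈ Set.range ![a15, b15, c15],
      x * y = y * x := by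
    rintro x ⟨j, rfl⟩ y ⟨k, rfl⟩
    exact (commute15 j k).eq
  letI := Subgroup.closureCommGroupOfComm hcomm
  have hp : IsPGroup 5 ↥C := by
    rintro ⟨x, hx⟩
    refine ⟨1, Subtype.ext ?_⟩
    show x ^ 5 ^ 1 = 1
    rw [pow_one]
    induction hx using Subgroup.closure_induction with
    | mem x hx => obtain ⟨k, rfl⟩ := hx; exact pow15 k
    | one => exact one_pow 5
    | mul x y hx hy h1 h2 =>
      have : Commute x y := congrArg Subtype.val (mul_comm (⟨x, hx⟩ : ↥C) ⟨y, hy⟩)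
      rw [this.mul_pow, h1, h2, one_mul]
    | inv x hx h1 => rw [inv_pow, h1, inv_one]
  have hge : 125 ≤ Nat.card ↥C := by
    have hmem : ∀ p : Fin 5 × Fin 5 × Fin 5,
        a15 ^ (p.1 : ℕ) * b15 ^ (p.2.1 : ℕ) * c15 ^ (p.2.2 : ℕ) ∈ C := fun p =>
      mul_mem (mul_mem (pow_mem (Subgroup.subset_closure (Set.mem_range_self (f := ![a15, b15, c15]) 0)) _)
        (pow_mem (Subgroup.subset_closure (Set.mem_range_self (f := ![a15, b15, c15]) 1)) _))
        (pow_mem (Subgroup.subset_closure (Set.mem_range_self (f := ![a15, b15, c15]) 2)) _)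
    have := Nat.card_le_card_of_injective (fun p => (⟨_, hmem p⟩ : ↥C)) fun p q h => by
      have h' := congrArg Subtype.val h
      have h1 := a15_b15_pow p.1 p.2.1 p.2.2
      have h2 := a15_b15_pow q.1 q.2.1 q.2.2
      simp only at h'
      rw [h'] at h1
      refine Prod.ext (Fin.ext (h1.1.symm.trans h2.1)) (Prod.ext (Fin.ext ?_) (Fin.ext ?_)) <;>
        omega
    simpa using this
  obtain ⟨n, hn⟩ := hp.exists_card_eq
  have hn3 : 3 ≤ n := by
    by_contra h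
    interval_cases n <;> omega
  intro h5
  have := Nat.mul_dvd_mul (hn ▸ pow_dvd_pow 5 hn3 : 5 ^ 3 ∣ Nat.card ↥C) h5
  rw [C.card_mul_index, nat_card_alternatingGroup, Nat.card_eq_fintype_card, Fintype.card_fin]
    at this
  norm_num [Nat.factorial] at this

/-- The cycle `(0 … 4)` of ten points. -/
def b10Perm : Equiv.Perm (Fin 10) :=
  ⟨![1, 2, 3, 4, 0, 5, 6, 7, 8, 9], ![4, 0, 1, 2, 3, 5, 6, 7, 8, 9],
    by decide +kernel, by decide +kernel⟩

/-- The cycle `(0 … 4)` of ten points as an even permutation. -/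
def b10 : ↥(alternatingGroup (Fin 10)) :=
  ⟨b10Perm, Equiv.Perm.mem_alternatingGroup.mpr (by decide +kernel)⟩

/-- A permutation of five and one of ten points side by side. -/
def juxt : Equiv.Perm (Fin 5) × Equiv.Perm (Fin 10) →* Equiv.Perm (Fin 15) :=
  (finSumFinEquiv : Fin 5 ⊕ Fin 10 ≃ Fin 15).permCongrHom.toMonoidHom.comp
    (Equiv.Perm.sumCongrHom (Fin 5) (Fin 10))

theorem juxt_sign (σ : Equiv.Perm (Fin 5)) (τ : Equiv.Perm (Fin 10)) :
    Equiv.Perm.sign (juxt (σ, τ)) = Equiv.Perm.sign σ * Equiv.Perm.sign τ := by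
  show Equiv.Perm.sign ((finSumFinEquiv : Fin 5 ⊕ Fin 10 ≃ Fin 15).permCongr
    (Equiv.sumCongr σ τ)) = _
  rw [Equiv.Perm.sign_permCongr, Equiv.Perm.sign_sumCongr]

/-- Even permutations of ten points acting on the last ten of fifteen. -/
def ι10 : ↥(alternatingGroup (Fin 10)) →* ↥(alternatingGroup (Fin 15)) :=
  ((juxt.comp (MonoidHom.inr (Equiv.Perm (Fin 5)) (Equiv.Perm (Fin 10)))).comp
    (alternatingGroup (Fin 10)).subtype).codRestrict _ fun σ => by
      show juxt (1, (σ : Equiv.Perm (Fin 10))) ∈ alternatingGroup (Fin 15)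
      rw [Equiv.Perm.mem_alternatingGroup, juxt_sign, map_one, one_mul]
      exact Equiv.Perm.mem_alternatingGroup.mp σ.2

theorem ι10_injective : Function.Injective ι10 := by
  intro σ τ h
  have h' : juxt (1, (σ : Equiv.Perm (Fin 10))) = juxt (1, (τ : Equiv.Perm (Fin 10))) :=
    congrArg Subtype.val h
  exact Subtype.ext (congrArg Prod.snd
    (Equiv.Perm.sumCongrHom_injective ((finSumFinEquiv : Fin 5 ⊕ Fin 10 ≃ Fin 15).permCongrHom.injective h')))

theorem ι10_b10 : ι10 b10 = b15 := by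
  decide +kernel

theorem ι10_commute (σ : ↥(alternatingGroup (Fin 10))) : Commute (ι10 σ) a15 := by
  let c5 : Equiv.Perm (Fin 5) := ⟨![1, 2, 3, 4, 0], ![4, 0, 1, 2, 3], by decide, by decide⟩
  have ha : juxt (c5, 1) = a15Perm := by decide +kernel
  apply Subtype.ext
  show juxt (1, (σ : Equiv.Perm (Fin 10))) * a15Perm = a15Perm * juxt (1, (σ : Equiv.Perm (Fin 10)))
  rw [← ha, ← map_mul, ← map_mul, Prod.mk_mul_mk, Prod.mk_mul_mk, one_mul, mul_one, one_mul,
    mul_one]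

end Fifteen

end CfsgLib.E7Alt65
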