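import Cfsg.Agent.E7AltSection65.WeylSound

/-!
Orbits of the linear functions scaled by elements of the Weyl group of type E7, modulo five and seven.
-/

set_option autoImplicit false
set_option maxRecDepth 4000

namespace CfsgLib.E7Alt65

open Cfsg.Lie CfsgLib.Chevalley

local notation "S" => sysE7

theorem three_ne_seven : ((3 : ℕ) : ZMod 7) ≠ 0 := by decide

theorem two_ne_five : ((2 : ℕ) : ZMod 5) ≠ 0 := by decide

theorem toBase_rank : ∀ i ∈ toBase, i < chevE7.rank := toBase_lt

theorem comp_scale {ℓ : ℕ} {f : Fin chevE7.nroots → ZMod ℓ} {k : ZMod ℓ}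
    {L : List (Fin chevE7.rank)} (h : ∀ s, f (Sys.wperm S L s) = k * f s)
    (M : List (Fin chevE7.rank)) (s : Fin chevE7.nroots) :
    f (Sys.wperm S M (Sys.wperm S (M.reverse ++ L ++ M) s)) = k * f (Sys.wperm S M s) := by
  simp only [Sys.wperm_append, Sys.wperm_reverse, Equiv.Perm.mul_apply, Equiv.Perm.inv_def,
    Equiv.apply_symm_apply, h]

theorem zc_ne_of_ne_zero {ℓ : ℕ} [NeZero ℓ] {f : Fin chevE7.nroots → ZMod ℓ}
    (hne : f ≠ 0) (M : List (Fin chevE7.rank)) : (fun s => f (Sys.wperm S M s)) ≠ 0 := by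
  intro e
  refine hne (funext fun s => ?_)
  have := congrFun e ((Sys.wperm S M).symm s)
  simpa using this

/-- A non-zero function modulo seven scaled by three. -/
theorem orbit7 {f : Fin chevE7.nroots → ZMod 7} (hf : IsLin f) (hne : f ≠ 0)
    {L : List (Fin chevE7.rank)} (h : ∀ s, f (Sys.wperm S L s) = 3 * f s) :
    zc f = 30 ∨ zc f = 24 ∨
      zc f = 12 ∧ ∃ M : List (Fin chevE7.rank), vals (fun s => f (Sys.wperm S M s)) = a7 := by
  haveI : Fact (Nat.Prime 7) := ⟨by norm_num⟩
  obtain ⟨M, hM⟩ := exists_rep hf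
  set g := fun s => f (Sys.wperm S M s) with hg
  have hgl : IsLin g := isLin_wperm hf M
  have hgne : g ≠ 0 := zc_ne_of_ne_zero hne M
  have hinv : sclInv 7 3 (vals g) = true :=
    scale_count hgl (k := 3) three_ne_seven (M.reverse ++ L ++ M) fun s => by
      simp only [hg, comp_scale h M s, Nat.cast_ofNat]
  have hmem : vals g ∈ list7 := by
    refine List.mem_filter.mpr ⟨hM, ?_⟩
    rw [Bool.and_eq_true, decide_eq_true_eq]
    exact ⟨fun e => hgne (eq_zero_of_vals hgl e), hinv⟩
  have hz : zc f = cnt 7 (vals g) 0 := by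
    rw [← zc_vals hgl, hg, zc_perm]
  have hc := List.all_eq_true.mp list7_cnt _ hmem
  simp only [Bool.or_eq_true, Bool.and_eq_true, beq_iff_eq, ← hz] at hc
  rcases hc with (hc | hc) | ⟨hc, hv | hv⟩
  · exact Or.inl hc
  · exact Or.inr (Or.inl hc)
  · exact Or.inr (Or.inr ⟨hc, M, hv⟩)
  · let W : List (Fin chevE7.rank) := toBase.pmap (fun i hi => (⟨i, hi⟩ : Fin chevE7.rank)) toBase_rank
    have hW : W.map Fin.val = toBase := by
      show (List.pmap _ _ _).map _ = _
      rw [List.map_pmap]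
      simp [List.pmap_eq_map]
    refine Or.inr (Or.inr ⟨hc, M ++ W, ?_⟩)
    have e := vals_wperm hgl W
    rw [hv, ← imgs_val, hW, toBase_eq.1] at e
    simp only [Sys.wperm_append, Equiv.Perm.mul_apply]
    exact e

/-- A non-zero function modulo five scaled by two. -/
theorem orbit5 {f : Fin chevE7.nroots → ZMod 5} (hf : IsLin f) (hne : f ≠ 0)
    {L : List (Fin chevE7.rank)} (h : ∀ s, f (Sys.wperm S L s) = 2 * f s) :
    ∃ M : List (Fin chevE7.rank), vals (fun s => f (Sys.wperm S M s)) = a5 := by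
  haveI : Fact (Nat.Prime 5) := ⟨by norm_num⟩
  obtain ⟨M, hM⟩ := exists_rep hf
  set g := fun s => f (Sys.wperm S M s) with hg
  have hgl : IsLin g := isLin_wperm hf M
  have hgne : g ≠ 0 := zc_ne_of_ne_zero hne M
  have hinv : sclInv 5 2 (vals g) = true :=
    scale_count hgl (k := 2) two_ne_five (M.reverse ++ L ++ M) fun s => by
      simp only [hg, comp_scale h M s, Nat.cast_ofNat]
  have hc := List.all_eq_true.mp list5_eq (vals g) (List.mem_filter.mpr ⟨hM, by
    rw [Bool.and_eq_true, decide_eq_true_eq]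
    exact ⟨fun e => hgne (eq_zero_of_vals hgl e), hinv⟩⟩)
  simp only [Bool.or_eq_true, beq_iff_eq] at hc
  rcases hc with hv | hv
  · exact ⟨M, hv⟩
  · let W : List (Fin chevE7.rank) := toBase.pmap (fun i hi => (⟨i, hi⟩ : Fin chevE7.rank)) toBase_rank
    have hW : W.map Fin.val = toBase := by
      show (List.pmap _ _ _).map _ = _
      rw [List.map_pmap]
      simp [List.pmap_eq_map]
    refine ⟨M ++ W, ?_⟩
    have e := vals_wperm hgl W
    rw [hv, ← imgs_val, hW, toBase_eq.2] at e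
    simp only [Sys.wperm_append, Equiv.Perm.mul_apply]
    exact e

theorem zc5 {f : Fin chevE7.nroots → ZMod 5} (hf : IsLin f) (hne : f ≠ 0)
    {L : List (Fin chevE7.rank)} (h : ∀ s, f (Sys.wperm S L s) = 2 * f s) : zc f = 26 := by
  obtain ⟨M, hM⟩ := orbit5 hf hne h
  rw [← zc_perm f (Sys.wperm S M), zc_vals (isLin_wperm hf M), hM, cnt_a5]

/-- A fixed function is carried to one fixed by a given element of the same prime order. -/
theorem exists_cox {ℓ : ℕ} [Fact ℓ.Prime] (hℓ : (2903040 : ℕ).factorization ℓ = 1)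
    {C : List (Fin chevE7.rank)} (hC : Sys.wperm S C ^ ℓ = 1) (hC1 : Sys.wperm S C ≠ 1)
    {L : List (Fin chevE7.rank)} (hL : Sys.wperm S L ^ ℓ = 1) (hL1 : Sys.wperm S L ≠ 1)
    {f : Fin chevE7.nroots → ZMod ℓ} (h : ∀ s, f (Sys.wperm S L s) = f s) :
    ∃ M : List (Fin chevE7.rank), ∀ s, f (Sys.wperm S M (Sys.wperm S C s)) = f (Sys.wperm S M s) := by
  classical
  set G := F4AltSection.weylPerms S
  let u : ↥G := ⟨Sys.wperm S L, L, rfl⟩
  let c : ↥G := ⟨Sys.wperm S C, C, rfl⟩
  have hu : orderOf u = ℓ := orderOf_eq_prime (Subtype.ext hL) fun e => hL1 (congrArg Subtype.val e)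
  have hc : orderOf c = ℓ := orderOf_eq_prime (Subtype.ext hC) fun e => hC1 (congrArg Subtype.val e)
  have hfac : (Nat.card ↥G).factorization ℓ = 1 := by rw [natCard_weyl, hℓ]
  let Pu := Sylow.ofCard (Subgroup.zpowers u) (p := ℓ) (by rw [hfac, Nat.card_zpowers, hu, pow_one])
  let Pc := Sylow.ofCard (Subgroup.zpowers c) (p := ℓ) (by rw [hfac, Nat.card_zpowers, hc, pow_one])
  obtain ⟨g, hg⟩ := MulAction.exists_smul_eq ↥G Pc Pu
  have hcu : g * c * g⁻¹ ∈ Subgroup.zpowers u := by
    have h1 : c ∈ (Pc : Subgroup ↥G) := by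
      rw [Sylow.coe_ofCard]; exact Subgroup.mem_zpowers c
    have h2' := Subgroup.smul_mem_pointwise_smul c (MulAut.conj g) _ h1
    rw [← Sylow.coe_subgroup_smul] at h2'
    change g * c * g⁻¹ ∈ ((g • Pc : Sylow ℓ ↥G) : Subgroup ↥G) at h2'
    rw [hg, Sylow.coe_ofCard] at h2'
    exact h2'
  obtain ⟨k, hk⟩ := mem_powers_iff_mem_zpowers.mpr hcu
  simp only at hk
  have hpow : ∀ (k : ℕ) s, f ((u ^ k : ↥G).1 s) = f s := by
    intro k
    induction k with
    | zero => intro s; simp
    | succ k ih =>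
      intro s
      rw [pow_succ', Subgroup.coe_mul, Equiv.Perm.mul_apply]
      exact (h _).trans (ih s)
  obtain ⟨Lg, hLg⟩ := g.2
  refine ⟨Lg, fun s => ?_⟩
  rw [← hLg, ← hpow k ((g : Equiv.Perm _) s), hk]
  simp [c]

/-- No element of order seven fixes a function that is scaled by three. -/
theorem fix7 {f : Fin chevE7.nroots → ZMod 7} (hf : IsLin f) (hne : f ≠ 0)
    {L L' : List (Fin chevE7.rank)} (h3 : ∀ s, f (Sys.wperm S L' s) = 3 * f s)
    (h : ∀ s, f (Sys.wperm S L s) = f s) (hL : Sys.wperm S L ^ 7 = 1) : Sys.wperm S L = 1 := by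
  haveI : Fact (Nat.Prime 7) := ⟨by norm_num⟩
  by_contra hL1
  let C : List (Fin chevE7.rank) :=
    [(0 : Fin 7), (2 : Fin 7), (3 : Fin 7), (4 : Fin 7), (5 : Fin 7), (6 : Fin 7)]
  have hC : C.map Fin.val = [0, 2, 3, 4, 5, 6] := rfl
  have hC7 : Sys.wperm S C ^ 7 = 1 := by
    rw [show Sys.wperm S C ^ 7 = Sys.wperm S (C ++ C ++ C ++ C ++ C ++ C ++ C) by
      simp only [Sys.wperm_append]; rfl]
    refine imgW_eq_sp ?_
    rw [← imgs_val]
    exact cox7.1
  have hC1 : Sys.wperm S C ≠ 1 := fun e => cox7.2 (by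
    rw [← hC, imgs_val, show imgW C = imgW [] by
      simp only [imgW, e, show Sys.wperm S [] = 1 from rfl], ← imgs_val]
    rfl)
  obtain ⟨M, hM⟩ := exists_cox (by
    rw [show 2903040 = 7 * 414720 by norm_num, Nat.factorization_mul (by norm_num) (by norm_num),
      Finsupp.add_apply, Nat.Prime.factorization_self (by norm_num),
      Nat.factorization_eq_zero_of_not_dvd (by norm_num)]) hC7 hC1 hL hL1 h
  set e := fun s => f (Sys.wperm S M s) with he
  have hel : IsLin e := isLin_wperm hf M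
  have hene : e ≠ 0 := zc_ne_of_ne_zero hne M
  have hchain : ∀ i : Fin 5, e (sf ⟨[2, 3, 4, 5, 6].getD (i : ℕ) 0, by fin_cases i <;> decide⟩) =
      e (sf ⟨[0, 2, 3, 4, 5].getD (i : ℕ) 0, by fin_cases i <;> decide⟩) := by
    intro i
    refine Eq.trans (congrArg e (Fin.ext ?_)) (hM _)
    rw [sf_val, wperm_val, sf_val, hC]
    exact (cox7_chain i).symm
  have c0 := hchain 0
  have c1 := hchain 1
  have c2 := hchain 2
  have c3 := hchain 3
  have c4 := hchain 4
  simp only [Fin.isValue, Fin.val_zero, Fin.val_one, Fin.val_two,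
    show ((3 : Fin 5) : ℕ) = 3 from rfl, show ((4 : Fin 5) : ℕ) = 4 from rfl,
    List.getD_cons_zero, List.getD_cons_succ] at c0 c1 c2 c3 c4
  set x := (e (sf 0)).val
  set y := (e (sf 1)).val
  have hx : x < 7 := ZMod.val_lt _
  have hy : y < 7 := ZMod.val_lt _
  have hv : vals e = [x, y, x, x, x, x, x] := by
    show [x, y, (e (sf 2)).val, (e (sf 3)).val, (e (sf 4)).val, (e (sf 5)).val, (e (sf 6)).val] = _
    rw [show e (sf 6) = e (sf 5) from c4, show e (sf 5) = e (sf 4) from c3,
      show e (sf 4) = e (sf 3) from c2, show e (sf 3) = e (sf 2) from c1,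
      show e (sf 2) = e (sf 0) from c0]
  have hvia : via 7 (vals e) (imgs [0, 2, 3, 4, 5, 6]) = vals e := by
    rw [← hC, imgs_val, ← vals_wperm hel]
    exact congrArg vals (funext hM)
  have hok := List.all_eq_true.mp fixed7 (7 * x + y) (List.mem_range.mpr (by omega))
  simp only [show (7 * x + y) / 7 = x by omega, show (7 * x + y) % 7 = y by omega, ← hv, hvia,
    beq_self_eq_true, Bool.not_true, Bool.false_or] at hok
  have hne' : 7 * x + y ≠ 0 := fun h0 => hene (eq_zero_of_vals hel (by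
    rw [hv, show x = 0 by omega, show y = 0 by omega]))
  have hz := orbit7 hel hene (L := M.reverse ++ L' ++ M) (comp_scale h3 M)
  rw [zc_vals hel] at hz
  simp only [Bool.or_eq_true, beq_iff_eq, hne', false_or, Bool.not_eq_true',
    Bool.or_eq_false_iff, beq_eq_false_iff_ne] at hok
  rcases hz with hz | hz | ⟨hz, -⟩
  exacts [hok.1.1 hz, hok.1.2 hz, hok.2 hz]

/-- No element of order five fixes a function that is scaled by two. -/
theorem fix5 {f : Fin chevE7.nroots → ZMod 5} (hf : IsLin f) (hne : f ≠ 0)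
    {L L' : List (Fin chevE7.rank)} (h2 : ∀ s, f (Sys.wperm S L' s) = 2 * f s)
    (h : ∀ s, f (Sys.wperm S L s) = f s) (hL : Sys.wperm S L ^ 5 = 1) : Sys.wperm S L = 1 := by
  haveI : Fact (Nat.Prime 5) := ⟨by norm_num⟩
  by_contra hL1
  let C : List (Fin chevE7.rank) := [(0 : Fin 7), (2 : Fin 7), (3 : Fin 7), (4 : Fin 7)]
  have hC : C.map Fin.val = [0, 2, 3, 4] := rfl
  have hC5 : Sys.wperm S C ^ 5 = 1 := by
    rw [show Sys.wperm S C ^ 5 = Sys.wperm S (C ++ C ++ C ++ C ++ C) by
      simp only [Sys.wperm_append]; rfl]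
    refine imgW_eq_sp ?_
    rw [← imgs_val]
    exact cox5.1
  have hC1 : Sys.wperm S C ≠ 1 := fun e => cox5.2 (by
    rw [← hC, imgs_val, show imgW C = imgW [] by
      simp only [imgW, e, show Sys.wperm S [] = 1 from rfl], ← imgs_val]
    rfl)
  obtain ⟨M, hM⟩ := exists_cox (by
    rw [show 2903040 = 5 * 580608 by norm_num, Nat.factorization_mul (by norm_num) (by norm_num),
      Finsupp.add_apply, Nat.Prime.factorization_self (by norm_num),
      Nat.factorization_eq_zero_of_not_dvd (by norm_num)]) hC5 hC1 hL hL1 h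
  set e := fun s => f (Sys.wperm S M s) with he
  have hel : IsLin e := isLin_wperm hf M
  have hene : e ≠ 0 := zc_ne_of_ne_zero hne M
  have hchain : ∀ i : Fin 3, e (sf ⟨[2, 3, 4].getD (i : ℕ) 0, by fin_cases i <;> decide⟩) =
      e (sf ⟨[0, 2, 3].getD (i : ℕ) 0, by fin_cases i <;> decide⟩) := by
    intro i
    refine Eq.trans (congrArg e (Fin.ext ?_)) (hM _)
    rw [sf_val, wperm_val, sf_val, hC]
    exact (cox5_chain i).symm
  have c0 := hchain 0
  have c1 := hchain 1
  have c2 := hchain 2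
  set x := (e (sf 0)).val
  set y := (e (sf 1)).val
  set u := (e (sf 5)).val
  set v := (e (sf 6)).val
  have hx : x < 5 := ZMod.val_lt _
  have hy : y < 5 := ZMod.val_lt _
  have hu : u < 5 := ZMod.val_lt _
  have hv' : v < 5 := ZMod.val_lt _
  have hv : vals e = [x, y, x, x, x, u, v] := by
    show [x, y, (e (sf 2)).val, (e (sf 3)).val, (e (sf 4)).val, u, v] = _
    rw [show e (sf 4) = e (sf 3) from c2, show e (sf 3) = e (sf 2) from c1,
      show e (sf 2) = e (sf 0) from c0]
  have hvia : via 5 (vals e) (imgs [0, 2, 3, 4]) = vals e := by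
    rw [← hC, imgs_val, ← vals_wperm hel]
    exact congrArg vals (funext hM)
  set n := 125 * x + 25 * y + 5 * u + v
  have hok := List.all_eq_true.mp fixed5 n (List.mem_range.mpr (by omega))
  simp only [show n / 125 = x by omega, show n / 25 % 5 = y by omega, show n / 5 % 5 = u by omega,
    show n % 5 = v by omega, ← hv, hvia, beq_self_eq_true, Bool.not_true, Bool.false_or] at hok
  have hne' : n ≠ 0 := fun h0 => hene (eq_zero_of_vals hel (by
    rw [hv, show x = 0 by omega, show y = 0 by omega, show u = 0 by omega, show v = 0 by omega]))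
  have hs : ∀ s, e (Sys.wperm S (M.reverse ++ L' ++ M) s) = 2 * e s := comp_scale h2 M
  have hz := zc5 hel hene hs
  rw [zc_vals hel] at hz
  have hinv := scale_count hel (k := 2) two_ne_five (M.reverse ++ L' ++ M) fun s => by
    rw [hs, Nat.cast_ofNat]
  simp only [Bool.or_eq_true, beq_iff_eq, hne', false_or, hz, beq_self_eq_true, Bool.not_true,
    hinv, Bool.false_eq_true, or_false] at hok

/-- The function modulo seven with twelve zeros is fixed by no element scaling a second such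
function by two. -/
theorem second7 {a b : Fin chevE7.nroots → ZMod 7} (ha : IsLin a) (hb : IsLin b) (hv : vals a = a7)
    {L : List (Fin chevE7.rank)} (h1 : ∀ s, a (Sys.wperm S L s) = a s)
    (h2 : ∀ s, b (Sys.wperm S L s) = 2 * b s) : zc b ≠ 12 := by
  intro hz
  have hσ := mem_maps ha L 1 fun s => by rw [h1, Nat.cast_one, one_mul]
  rw [hv] at hσ
  have hs := List.all_eq_true.mp stab7_shape _ hσ
  simp only [shape7, Bool.and_eq_true, List.all_eq_true, List.mem_cons, List.not_mem_nil, or_false,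
    forall_eq_or_imp, forall_eq, List.mem_range] at hs
  obtain ⟨⟨s1, s4, s6⟩, ⟨⟨s33, s35⟩, s53, s55⟩⟩ := hs
  have row : ∀ j : Fin 7, 2 * b (sf j) =
      ∑ m : Fin 7, ((coef ((imgW L).getD j 0) m : ℤ) - 4 : ℤ) * b (sf m) := by
    intro j
    rw [← h2, hb, imgW_getD]
    exact Finset.sum_congr rfl fun m _ => by rw [vec_eq]
  have killed : ∀ j : Fin 7, (∀ m : ℕ, m < 7 → (if m = (j : ℕ) then
      coef ((imgW L).getD j 0) m == 5 || coef ((imgW L).getD j 0) m == 3
      else coef ((imgW L).getD j 0) m == 4) = true) → b (sf j) = 0 := by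
    intro j hj
    have e := row j
    rw [Finset.sum_eq_single j (fun m _ hm => ?_) (fun h => absurd (Finset.mem_univ j) h)] at e
    · have := hj j j.isLt
      rw [if_pos rfl, Bool.or_eq_true, beq_iff_eq, beq_iff_eq] at this
      revert e
      generalize b (sf j) = x
      rcases this with h | h <;> rw [h] <;> revert x <;> decide
    · have := hj m m.isLt
      rw [if_neg fun h => hm (Fin.ext h), beq_iff_eq] at this
      rw [this]
      simp
  have b1 : b (sf 1) = 0 := killed 1 s1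
  have b4 : b (sf 4) = 0 := killed 4 s4
  have b6 : b (sf 6) = 0 := killed 6 s6
  set g := mkLin (R := ZMod 7) ![b (sf 0), 0, b (sf 2), 0, 0, 0, 0]
  have hg : IsLin g := isLin_mkLin _
  have hgv : vals g = [(b (sf 0)).val, 0, (b (sf 2)).val, 0, 0, 0, 0] := by
    simp [vals, g, mkLin_sf]
  set σ := imgW L with hσdef
  have hgrow : ∀ j : Fin 7, g (Sys.wperm S L (sf j)) =
      ((coef (σ.getD j 0) 0 : ℤ) - 4 : ℤ) * b (sf 0) + ((coef (σ.getD j 0) 2 : ℤ) - 4 : ℤ) * b (sf 2) := by
    intro j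
    show ∑ m : Fin 7, (Sys.vec S m (Sys.wperm S L (sf j)) : ZMod 7) * _ = _
    simp only [fun m : Fin 7 => vec_eq m (Sys.wperm S L (sf j))]
    rw [Fin.sum_univ_seven, hσdef, imgW_getD]
    simp only [Matrix.cons_val, mul_zero, add_zero, Fin.isValue, Fin.val_zero, Fin.val_two]
  have hbrow : ∀ j : Fin 7, 2 * b (sf j) =
      ((coef (σ.getD j 0) 0 : ℤ) - 4 : ℤ) * b (sf 0) + ((coef (σ.getD j 0) 2 : ℤ) - 4 : ℤ) * b (sf 2) +
      ((coef (σ.getD j 0) 3 : ℤ) - 4 : ℤ) * b (sf 3) + ((coef (σ.getD j 0) 5 : ℤ) - 4 : ℤ) * b (sf 5) := by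
    intro j
    rw [row j, Fin.sum_univ_seven, b1, b4, b6]
    simp only [mul_zero, add_zero, Fin.isValue, Fin.val_zero, Fin.val_two,
      show ((3 : Fin 7) : ℕ) = 3 from rfl, show ((5 : Fin 7) : ℕ) = 5 from rfl]
  have hout : ∀ (j : Fin 7), b (sf j) = 0 → coef (σ.getD j 0) 0 = 4 → coef (σ.getD j 0) 2 = 4 →
      g (Sys.wperm S L (sf j)) = b (sf j) := by
    intro j hj h0 h2'
    rw [hgrow, h0, h2', hj]
    simp
  have f1 : g (Sys.wperm S L (sf 1)) = b (sf 1) := hout 1 b1
    (by simpa using s1 0 (by norm_num)) (by simpa using s1 2 (by norm_num))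
  have f4 : g (Sys.wperm S L (sf 4)) = b (sf 4) := hout 4 b4
    (by simpa using s4 0 (by norm_num)) (by simpa using s4 2 (by norm_num))
  have f6 : g (Sys.wperm S L (sf 6)) = b (sf 6) := hout 6 b6
    (by simpa using s6 0 (by norm_num)) (by simpa using s6 2 (by norm_num))
  have f3 : g (Sys.wperm S L (sf 3)) = b (sf 3) := by
    have e := hbrow 3
    rw [hgrow]
    simp only [Fin.isValue, show ((3 : Fin 7) : ℕ) = 3 from rfl] at e ⊢
    rw [show coef (σ.getD 3 0) 3 = 5 by simpa using s33,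
      show coef (σ.getD 3 0) 5 = 4 by simpa using s35] at e
    push_cast at e ⊢
    linear_combination -e
  have f5 : g (Sys.wperm S L (sf 5)) = b (sf 5) := by
    have e := hbrow 5
    rw [hgrow]
    simp only [Fin.isValue, show ((5 : Fin 7) : ℕ) = 5 from rfl] at e ⊢
    rw [show coef (σ.getD 5 0) 3 = 4 by simpa using s53,
      show coef (σ.getD 5 0) 5 = 5 by simpa using s55] at e
    push_cast at e ⊢
    linear_combination -e
  have hfill : ∀ j : Fin 7, g (Sys.wperm S L (sf j)) = b (sf j) →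
      vmod 7 (vals g) (σ.getD j 0) = (b (sf j)).val := by
    intro j hj
    rw [hσdef, imgW_getD, vmod_vals hg, hj]
  have hx := ZMod.val_lt (b (sf 0))
  have hy := ZMod.val_lt (b (sf 2))
  set n := 7 * (b (sf 0)).val + (b (sf 2)).val
  have hfv : fill7 (n / 7) (n % 7) (imgW L) = vals b := by
    rw [show n / 7 = (b (sf 0)).val by omega, show n % 7 = (b (sf 2)).val by omega, fill7]
    simp only [← hgv]
    show [(b (sf 0)).val, vmod 7 (vals g) (σ.getD (1 : Fin 7) 0), (b (sf 2)).val,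
      vmod 7 (vals g) (σ.getD (3 : Fin 7) 0), vmod 7 (vals g) (σ.getD (4 : Fin 7) 0),
      vmod 7 (vals g) (σ.getD (5 : Fin 7) 0), vmod 7 (vals g) (σ.getD (6 : Fin 7) 0)] = _
    rw [hfill 1 f1, hfill 3 f3, hfill 4 f4, hfill 5 f5, hfill 6 f6]
    rfl
  have hS := List.all_eq_true.mp (List.all_eq_true.mp search7 _ hσ) n
    (List.mem_range.mpr (by omega))
  rw [← hσdef] at hfv
  simp only [hfv] at hS
  have hvia : via 7 (vals b) (imgW L) = scl 7 2 (vals b) := by
    rw [← vals_wperm hb, ← vals_smul]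
    congr 1
    funext s
    rw [h2, Nat.cast_ofNat]
  rw [zc_vals hb] at hz
  rw [← hσdef] at hvia
  simp [hvia, hz] at hS

end CfsgLib.E7Alt65
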