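import Cfsg.Agent.E7AltSection65.Toral

/-!
A commuting pair of elements of prime order, scaled by an element of the group, moved into the torus
of type E7.
-/

set_option autoImplicit false

namespace CfsgLib.E7Alt65

open Cfsg.Lie CfsgLib.Chevalley

local notation "S" => sysE7

variable {F : Type*} [Field F] [Fintype F] {ℓ : ℕ} [Fact ℓ.Prime] {ζ : Fˣ}

/-- One element moving two torus elements gives one Weyl element for both logarithms. -/
theorem exists_move_pair (hζ : orderOf ζ = ℓ) {t u t' u' g : GL chevE7.Idx F}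
    (hg : g ∈ chevE7.group F) {a b a' b' : Fin chevE7.nroots → ZMod ℓ} (ha : IsLog ζ t a)
    (hb : IsLog ζ u b) (ha' : IsLog ζ t' a') (hb' : IsLog ζ u' b') (e : g * t * g⁻¹ = t')
    (e' : g * u * g⁻¹ = u') :
    ∃ L : List (Fin chevE7.rank),
      (∀ s, a' (Sys.wperm S L s) = a s) ∧ ∀ s, b' (Sys.wperm S L s) = b s := by
  obtain ⟨n, hn⟩ := CfsgLib.F4AltSection.exists_monomial_conj S hg
  obtain ⟨L, hL⟩ := Sys.exists_wperm S F n
  refine ⟨L, fun s => ?_, fun s => ?_⟩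
  · rw [← hL]
    exact ha.conj hζ ha' n
      (by rw [← hn t (mem_diagonal_of_isLog ha) (e ▸ mem_diagonal_of_isLog ha'), e]) s
  · rw [← hL]
    exact hb.conj hζ hb' n
      (by rw [← hn u (mem_diagonal_of_isLog hb) (e' ▸ mem_diagonal_of_isLog hb'), e']) s

theorem reverse_scale {f g : Fin chevE7.nroots → ZMod ℓ} {L : List (Fin chevE7.rank)}
    (h : ∀ s, f (Sys.wperm S L s) = g s) (s : Fin chevE7.nroots) :
    g (Sys.wperm S L.reverse s) = f s := by
  rw [← h, Sys.wperm_reverse, Equiv.Perm.inv_def, Equiv.apply_symm_apply]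

/-- An element scaling a torus element gives a Weyl element scaling its logarithm. -/
theorem exists_scale (hζ : orderOf ζ = ℓ) {t g : GL chevE7.Idx F} (hg : g ∈ chevE7.group F)
    {f : Fin chevE7.nroots → ZMod ℓ} (h : IsLog ζ t f) {k : ℕ} (e : g * t * g⁻¹ = t ^ k) :
    ∃ L : List (Fin chevE7.rank), ∀ s, f (Sys.wperm S L s) = (k : ZMod ℓ) * f s := by
  obtain ⟨L, hL⟩ := exists_perm_scale hζ hg h e
  exact ⟨L.reverse, fun s => reverse_scale (f := fun s => (k : ZMod ℓ) * f s) (g := f) hL s⟩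

theorem ne_zero_of_isLog {H : Type*} [Group H] {κ : H →* GL chevE7.Idx F}
    (hκ : Function.Injective κ) {s : H} (hs : s ≠ 1) {f : Fin chevE7.nroots → ZMod ℓ}
    (h : IsLog ζ (κ s) f) : f ≠ 0 := by
  intro h0
  refine hs (hκ ?_)
  rw [map_one]
  exact (h0 ▸ h).unique (isLog_one ζ)

/-- The pair goes into the torus. -/
theorem exists_toral_pair (hdiv : ℓ ∣ 2903040) (hsq : ¬ ℓ ^ 2 ∣ 2903040)
    (hq : ℓ ^ 2 ∣ Fintype.card F - 1) (hζ : orderOf ζ = ℓ) (k : ℕ)
    (hfix : ∀ f : Fin chevE7.nroots → ZMod ℓ, IsLin f → f ≠ 0 →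
      ∀ L L' : List (Fin chevE7.rank), (∀ s, f (Sys.wperm S L' s) = (k : ZMod ℓ) * f s) →
        (∀ s, f (Sys.wperm S L s) = f s) → Sys.wperm S L ^ ℓ = 1 → Sys.wperm S L = 1)
    {H : Type*} [Group H] [Finite H] (i : H →* GL chevE7.Idx F) (hi : Function.Injective i)
    (hig : ∀ h, i h ∈ chevE7.group F) {z z' y : H} (hz : z ^ ℓ = 1) (hz' : z' ^ ℓ = 1)
    (hc : Commute z z') (hne : z ≠ 1) (hind : ∀ j : ℕ, z' ≠ z ^ j)
    (hy : y * z * y⁻¹ = z ^ k) (hy' : y * z' * y⁻¹ = z' ^ k) :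
    ∃ κ : H →* GL chevE7.Idx F, Function.Injective κ ∧ (∀ h, κ h ∈ chevE7.group F) ∧
      κ z ∈ chevE7.diagonalSubgroup F ∧ κ z' ∈ chevE7.diagonalSubgroup F := by
  classical
  have hℓ : ℓ.Prime := Fact.out
  set P : Subgroup H := Subgroup.closure {z, z'} with hP
  have hcomm : ∀ a ∈ ({z, z'} : Set H), ∀ b ∈ ({z, z'} : Set H), a * b = b * a := by
    rintro a (rfl | rfl) b (rfl | rfl)
    exacts [rfl, hc.eq, hc.symm.eq, rfl]
  have hcl := Subgroup.isMulCommutative_closure hcomm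
  have hPc : ∀ a ∈ P, ∀ b ∈ P, Commute a b := fun a ha b hb =>
    congrArg Subtype.val (hcl.is_comm.comm ⟨a, ha⟩ ⟨b, hb⟩)
  have hall : ∀ s ∈ P, s ^ ℓ = 1 ∧ y * s * y⁻¹ = s ^ k := by
    intro s hs
    induction hs using Subgroup.closure_induction with
    | mem x hx => rcases hx with rfl | rfl; exacts [⟨hz, hy⟩, ⟨hz', hy'⟩]
    | one => simp
    | mul a b ha hb h1 h2 =>
      refine ⟨by rw [(hPc a ha b hb).mul_pow, h1.1, h2.1, one_mul], ?_⟩
      rw [(hPc a ha b hb).mul_pow, ← h1.2, ← h2.2]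
      group
    | inv a ha h1 =>
      refine ⟨by rw [inv_pow, h1.1, inv_one], ?_⟩
      rw [inv_pow, ← h1.2]
      group
  have hPp : IsPGroup ℓ ↥P := fun x => ⟨1, Subtype.ext (by rw [pow_one]; exact (hall x x.2).1)⟩
  -- first into the monomial subgroup
  let iG : H →* ↥(chevE7.group F) := i.codRestrict _ hig
  obtain ⟨g, hg⟩ := CfsgLib.F4AltSection.exists_conj_into _ (index_monomial (F := F) hdiv hq hsq)
    (hPp.map iG)
  let κ : H →* GL chevE7.Idx F := (MulAut.conj (g : GL chevE7.Idx F)).toMonoidHom.comp i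
  have hκ : Function.Injective κ := (MulAut.conj (g : GL chevE7.Idx F)).injective.comp hi
  have hκg : ∀ h, κ h ∈ chevE7.group F := fun h => mul_mem (mul_mem g.2 (hig h)) (inv_mem g.2)
  have hN : ∀ s ∈ P, κ s ∈ chevE7.monomialSubgroup F := fun s hs => by
    have := hg _ (Subgroup.mem_map_of_mem iG hs)
    rw [Subgroup.mem_subgroupOf] at this
    exact this
  let ψ : ↥P →* Equiv.Perm (Fin chevE7.nroots) :=
    (Sys.perm S F).comp ((κ.comp P.subtype).codRestrict _ fun s => hN s s.2)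
  have hzP : z ∈ P := Subgroup.subset_closure (Set.mem_insert _ _)
  have hz'P : z' ∈ P := Subgroup.subset_closure (Set.mem_insert_of_mem _ rfl)
  have hdiag : ∀ s : ↥P, ψ s = 1 → κ s ∈ chevE7.diagonalSubgroup F := by
    intro s hs
    rw [MonoidHom.comp_apply, ← MonoidHom.mem_ker, Sys.ker_perm S, hSub,
      Subgroup.mem_subgroupOf] at hs
    exact hs
  -- some non-trivial element acts trivially
  obtain ⟨z1, hz1P, hz1, hz1T⟩ : ∃ z1 ∈ P, z1 ≠ 1 ∧ κ z1 ∈ chevE7.diagonalSubgroup F := by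
    by_cases h1 : ψ ⟨z, hzP⟩ = 1
    · exact ⟨z, hzP, hne, hdiag ⟨z, hzP⟩ h1⟩
    · have hle : ψ.range ≤ CfsgLib.F4AltSection.weylPerms S := by
        rintro _ ⟨s, rfl⟩
        exact Sys.exists_wperm S F _
      have hord : orderOf (ψ ⟨z, hzP⟩) = ℓ := by
        refine orderOf_eq_prime ?_ h1
        rw [← map_pow, show (⟨z, hzP⟩ : ↥P) ^ ℓ = 1 from Subtype.ext hz, map_one]
      obtain ⟨n, hn⟩ := hPp.exists_card_eq
      obtain ⟨m, -, hm⟩ := (Nat.dvd_prime_pow hℓ).mp (hn ▸ Subgroup.card_range_dvd ψ)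
      have hm1 : m ≤ 1 := by
        by_contra hlt
        refine hsq ((pow_dvd_pow ℓ (show 2 ≤ m by omega)).trans ?_)
        rw [← natCard_weyl, ← hm]
        exact Subgroup.card_dvd_of_le hle
      have heq : Subgroup.zpowers (ψ ⟨z, hzP⟩) = ψ.range := by
        refine Subgroup.eq_of_le_of_card_ge (Subgroup.zpowers_le.mpr ⟨_, rfl⟩) ?_
        rw [Nat.card_zpowers, hord, hm]
        calc ℓ ^ m ≤ ℓ ^ 1 := Nat.pow_le_pow_right hℓ.pos hm1
          _ = ℓ := pow_one ℓ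
      have hmem : ψ ⟨z', hz'P⟩ ∈ Subgroup.zpowers (ψ ⟨z, hzP⟩) := heq ▸ ⟨_, rfl⟩
      obtain ⟨j, hj⟩ := mem_powers_iff_mem_zpowers.mpr hmem
      simp only at hj
      let w : ↥P := ⟨z', hz'P⟩ * (⟨z, hzP⟩ ^ j)⁻¹
      have hw : (w : H) = z' * (z ^ j)⁻¹ := by
        simp only [w, Subgroup.coe_mul, Subgroup.coe_inv, SubmonoidClass.coe_pow]
      have hw1 : ψ w = 1 := by
        simp only [w, map_mul, map_inv, map_pow, hj, mul_inv_cancel]
      have hT := hdiag w hw1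
      rw [hw] at hT
      exact ⟨z' * (z ^ j)⁻¹, mul_mem hz'P (inv_mem (pow_mem hzP j)),
        fun e => hind j (mul_inv_eq_one.mp e), hT⟩
  obtain ⟨f, hf⟩ := exists_log hζ hz1T (by rw [← map_pow, (hall _ hz1P).1, map_one])
  obtain ⟨L', hL'⟩ := exists_scale hζ (hκg y) hf (k := k)
    (by rw [← map_inv, ← map_mul, ← map_mul, (hall _ hz1P).2, map_pow])
  have key : ∀ s ∈ P, κ s ∈ chevE7.diagonalSubgroup F := by
    intro s hs
    obtain ⟨L, hL⟩ := Sys.exists_wperm S F ⟨κ s, hN s hs⟩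
    have h := hfix f hf.1 (ne_zero_of_isLog hκ hz1 hf) L L' hL' (fun r => by
      rw [← hL]
      refine hf.conj hζ hf ⟨κ s, hN s hs⟩ ?_ r
      show κ s * κ z1 * (κ s)⁻¹ = κ z1
      rw [← map_mul, ← map_inv, ← map_mul, (hPc s hs z1 hz1P).eq, mul_inv_cancel_right]) (by
      rw [← hL, ← map_pow, show (⟨κ s, hN s hs⟩ : ↥(chevE7.monomialSubgroup F)) ^ ℓ = 1 from
        Subtype.ext (by rw [SubmonoidClass.coe_pow, OneMemClass.coe_one, ← map_pow, (hall s hs).1,
          map_one]), map_one])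
    exact hdiag ⟨s, hs⟩ (hL.trans h)
  exact ⟨κ, hκ, hκg, key z hzP, key z' hz'P⟩

end CfsgLib.E7Alt65
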