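import Cfsg.Agent.E7AltSection65.Setup
import Cfsg.Agent.E7AltSection65.Lifts
import Cfsg.Agent.E7AltSection65.Kernel

/-!
No alternating section of degree fourteen outside characteristic seven.
-/

set_option autoImplicit false

namespace CfsgLib.E7Alt65

open Cfsg.Lie CfsgLib.Chevalley

local notation "S" => sysE7

theorem three7 : (3 : ZMod 7) ≠ 0 := by decide

theorem two7 : (2 : ZMod 7) ≠ 0 := by decide

theorem axis7 : ∀ v : ZMod 7, v ≠ 0 → ∃ k : Fin 6, v = 3 ^ (k : ℕ) := by decide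

theorem plane7 : ∀ u v : ZMod 7, u ≠ 0 → v ≠ 0 → ∃ k : Fin 6, ∃ i : Fin 3,
    u = 3 ^ (k : ℕ) ∧ (v = 3 ^ (k : ℕ) * 2 ^ (i : ℕ) ∨ v = 3 ^ (k : ℕ) * 2 ^ (i : ℕ) * 3) := by
  decide

theorem neg7 : ∀ x : ZMod 7, -x = ((6 : ℕ) : ZMod 7) * x := by decide

section Count

variable (m : ZMod 7 → ZMod 7 → ℕ)

theorem count_orbits (h1 : ∀ u v, m u v = m u (2 * v)) (h2 : ∀ u v, m u v = m (3 * u) (3 * v))
    (h3 : ∀ u v, m u v = m v (3 * u)) :
    (∀ v, v ≠ 0 → m 0 v = m 0 1) ∧ (∀ u, u ≠ 0 → m u 0 = m 0 1) ∧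
      ∀ u v, u ≠ 0 → v ≠ 0 → m u v = m 1 1 := by
  have : Fact (Nat.Prime 7) := ⟨by norm_num⟩
  have p2 : ∀ (k : ℕ) u v, m u v = m (3 ^ k * u) (3 ^ k * v) := by
    intro k
    induction k with
    | zero => simp
    | succ k ih => intro u v; rw [ih, h2, pow_succ']; simp only [mul_assoc]
  have p1 : ∀ (i : ℕ) u v, m u v = m u (2 ^ i * v) := by
    intro i
    induction i with
    | zero => simp
    | succ i ih => intro u v; rw [ih, h1, pow_succ', mul_assoc]
  have hax : ∀ v, v ≠ 0 → m 0 v = m 0 1 := by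
    intro v hv
    obtain ⟨k, rfl⟩ := axis7 v hv
    rw [p2 k 0 1, mul_zero, mul_one]
  refine ⟨hax, fun u hu => ?_, fun u v hu hv => ?_⟩
  · rw [h3, hax _ (mul_ne_zero three7 hu)]
  · obtain ⟨k, i, rfl, rfl | rfl⟩ := plane7 u v hu hv
    · rw [p2 k 1 1, p1 i (3 ^ (k : ℕ) * 1) (3 ^ (k : ℕ) * 1)]
      ring_nf
    · rw [h3 1 1, p2 k 1 (3 * 1), p1 i (3 ^ (k : ℕ) * 1) (3 ^ (k : ℕ) * (3 * 1))]
      ring_nf

end Count

variable {F : Type*} [Field F] [Fintype F] {H : Type*} [Group H] [Finite H]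

/-- Three symmetries of a pair of non-zero functions force twelve zeros each. -/
theorem zc_twelve {a b : Fin chevE7.nroots → ZMod 7} (ha : IsLin a) (hb : IsLin b)
    (hane : a ≠ 0) (habne : (fun s => a s + b s) ≠ 0)
    {L1 L2 L3 : List (Fin chevE7.rank)}
    (e1 : ∀ s, a (Sys.wperm S L1 s) = a s) (e1' : ∀ s, 2 * b (Sys.wperm S L1 s) = b s)
    (e2 : ∀ s, 3 * a (Sys.wperm S L2 s) = a s) (e2' : ∀ s, 3 * b (Sys.wperm S L2 s) = b s)
    (e3 : ∀ s, b (Sys.wperm S L3 s) = a s) (e3' : ∀ s, 3 * a (Sys.wperm S L3 s) = b s) :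
    zc a = 12 ∧ zc b = 12 ∧
      ∃ M : List (Fin chevE7.rank), vals (fun s => a (Sys.wperm S M s)) = a7 := by
  classical
  haveI : Fact (Nat.Prime 7) := ⟨by norm_num⟩
  let m : ZMod 7 → ZMod 7 → ℕ := fun u v =>
    (Finset.univ.filter fun s => a s = u ∧ b s = v).card
  have h1 : ∀ u v, m u v = m u (2 * v) := by
    intro u v
    refine (Finset.card_equiv (Sys.wperm S L1) fun s => ?_).symm
    simp only [Finset.mem_filter, Finset.mem_univ, true_and, e1, ← e1' s]
    exact and_congr_right fun _ => (mul_right_injective₀ two7).eq_iff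
  have h2 : ∀ u v, m u v = m (3 * u) (3 * v) := by
    intro u v
    refine (Finset.card_equiv (Sys.wperm S L2) fun s => ?_).symm
    simp only [Finset.mem_filter, Finset.mem_univ, true_and, ← e2 s, ← e2' s]
    exact and_congr (mul_right_injective₀ three7).eq_iff
      (mul_right_injective₀ three7).eq_iff
  have h3 : ∀ u v, m u v = m v (3 * u) := by
    intro u v
    refine (Finset.card_equiv (Sys.wperm S L3) fun s => ?_).symm
    simp only [Finset.mem_filter, Finset.mem_univ, true_and, ← e3 s, ← e3' s]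
    rw [and_comm]
    exact and_congr_left' (mul_right_injective₀ three7).eq_iff
  obtain ⟨hA, hB, hC⟩ := count_orbits m h1 h2 h3
  have hza : zc a = ∑ v, m 0 v := by
    rw [zc, Finset.card_eq_sum_card_fiberwise (f := b) (t := Finset.univ) fun s _ => Finset.mem_univ _]
    simp only [m, Finset.filter_filter]
  have hzs : zc (fun s => a s + b s) = ∑ u, m u (-u) := by
    rw [zc, Finset.card_eq_sum_card_fiberwise (f := a) (t := Finset.univ) fun s _ => Finset.mem_univ _]
    simp only [m, Finset.filter_filter]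
    refine Finset.sum_congr rfl fun u _ => congrArg Finset.card (Finset.filter_congr fun s _ => ?_)
    constructor
    · rintro ⟨h, rfl⟩; exact ⟨rfl, eq_neg_of_add_eq_zero_right h⟩
    · rintro ⟨rfl, h⟩; exact ⟨by rw [h, add_neg_cancel], rfl⟩
  have htot : 126 = ∑ u, ∑ v, m u v := by
    rw [show (126 : ℕ) = (Finset.univ : Finset (Fin chevE7.nroots)).card from by simp; rfl,
      Finset.card_eq_sum_card_fiberwise (f := fun s => (a s, b s)) (t := Finset.univ)
        fun s _ => Finset.mem_univ _, Fintype.sum_prod_type]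
    simp only [m, Prod.mk.injEq]
  have hm : ∀ u v, m u v = if u = 0 then (if v = 0 then m 0 0 else m 0 1) else
      if v = 0 then m 0 1 else m 1 1 := by
    intro u v
    split_ifs with hu hv hv
    · rw [hu, hv]
    · rw [hu, hA v hv]
    · rw [hv, hB u hu]
    · exact hC u v hu hv
  generalize m 0 0 = x, m 0 1 = y, m 1 1 = w at hm
  simp only [hm] at hza hzs htot
  have s1 : ∀ p q : ℕ, (∑ v : ZMod 7, if v = 0 then p else q) = p + 6 * q := by
    intro p q
    rw [← Finset.add_sum_erase _ _ (Finset.mem_univ (0 : ZMod 7)), if_pos rfl,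
      Finset.sum_congr rfl fun v hv => if_neg (Finset.ne_of_mem_erase hv), Finset.sum_const,
      Finset.card_erase_of_mem (Finset.mem_univ _), Finset.card_univ, ZMod.card, smul_eq_mul]
  simp only [if_true, neg_eq_zero, ite_self, s1] at hza hzs htot
  have hza' : zc a = x + 6 * y := hza
  have hzs' : zc (fun s => a s + b s) = x + 6 * w := by
    rw [hzs, ← s1]
    exact Finset.sum_congr rfl fun u _ => by split_ifs <;> rfl
  have htot' : 126 = x + 6 * y + 6 * (y + 6 * w) := by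
    rw [htot, ← s1]
    refine Finset.sum_congr rfl fun u _ => ?_
    split_ifs
    · exact s1 x y
    · exact s1 y w
  have ha' := orbit7 ha hane (L := L2.reverse) fun s => reverse_scale (f := fun r => 3 * a r) e2 s |>.symm ▸ rfl
  have hs' := orbit7 (isLin_add ha hb) habne (L := L2.reverse) fun s => by
    have i1 := reverse_scale (f := fun r => 3 * a r) (g := a) e2 s
    have i2 := reverse_scale (f := fun r => 3 * b r) (g := b) e2' s
    rw [i1, i2, mul_add]
  have h12 : zc a = 12 := by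
    rcases ha' with ha' | ha' | ⟨ha', -⟩
    · rcases hs' with hs' | hs' | ⟨hs', -⟩ <;> omega
    · rcases hs' with hs' | hs' | ⟨hs', -⟩ <;> omega
    · exact ha'
  refine ⟨h12, ?_, ?_⟩
  · rw [← h12, ← zc_perm b (Sys.wperm S L3)]
    exact congrArg zc (funext e3)
  · rcases ha' with ha' | ha' | ⟨-, hM⟩
    · omega
    · omega
    · exact hM

/-- No minimal cover of the alternating group of degree fourteen lies in the group. -/
theorem no_fourteen_min (hq : 49 ∣ Fintype.card F - 1) (i : H →* GL chevE7.Idx F)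
    (hi : Function.Injective i) (hig : ∀ h, i h ∈ chevE7.group F)
    (π : H →* ↥(alternatingGroup (Fin 14))) (hπ : Function.Surjective π)
    (hmin : ∀ U : Subgroup H, U.map π = ⊤ → U = ⊤) : False := by
  classical
  haveI : Fact (Nat.Prime 7) := ⟨by norm_num⟩
  obtain ⟨ζ, hζ⟩ := exists_prime_orderOf_dvd_card (G := Fˣ) 7
    (by rw [Fintype.card_units]; exact dvd_trans (by norm_num) hq)
  have hsq : ¬ 7 ^ 2 ∣ 2903040 := by norm_num
  have hq' : 7 ^ 2 ∣ Fintype.card F - 1 := by simpa using hq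
  have hK : ¬ 7 ∣ Nat.card ↥π.ker := kernel_prime_scale S (by rw [natCard_weyl]; exact hsq)
    (index_monomial (by norm_num) hq' hsq) (card_torsion hζ) (by norm_num) i hi hig π hπ hmin
    (fun d hd => by
      rw [nat_card_alternatingGroup, Nat.card_eq_fintype_card, Fintype.card_fin]
      have hd8 : d ≤ 8 := hd
      interval_cases d <;> decide +kernel)
    ![a14, b14] not_seven_dvd_index pow14 commute14 exists_scale14
  obtain ⟨ha7, hb7, hab, hane, hbne⟩ := a14_b14_facts
  obtain ⟨z, z', hza, hzb, hz, hz', hc⟩ := exists_pair π hπ hK ha7 hb7 hab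
  have pz : π z ≠ 1 := by rw [hza]; exact hane
  have pz' : π z' ≠ 1 := by rw [hzb]; exact hbne
  have hpow : ∀ {s : H} (j : ℕ), s ^ 7 = 1 → (s ^ j) ^ 7 = 1 := fun j h => by
    rw [← pow_mul, mul_comm, pow_mul, h, one_pow]
  have hne3 : ∀ {s : H}, s ^ 7 = 1 → π s ≠ 1 → ∀ j : ℕ, ¬ 7 ∣ j → π (s ^ j) ≠ 1 := by
    intro s hs hne j hj h
    rw [map_pow] at h
    have ho : orderOf (π s) = 7 := orderOf_eq_prime (by rw [← map_pow, hs, map_one]) hne
    exact hj (ho ▸ orderOf_dvd_of_pow_eq_one h)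
  obtain ⟨q1, hq1, hq1'⟩ := exists_y1
  obtain ⟨q3, hq3, hq3'⟩ := exists_y3
  obtain ⟨q4, hq4, hq4'⟩ := exists_ys
  obtain ⟨y1, -, hy1, hy1'⟩ := exists_lift_pair π hπ hK hz hz' hz (hpow 2 hz') hc (hc.pow_right 2) pz
    (hne3 hz' pz' 2 (by norm_num)) q1 (by rw [hza, hq1]) (by rw [map_pow, hzb, hq1'])
  obtain ⟨y3, -, hy3, hy3'⟩ := exists_lift_pair π hπ hK hz hz' (hpow 3 hz) (hpow 3 hz') hc
    (hc.pow_pow 3 3) (hne3 hz pz 3 (by norm_num)) (hne3 hz' pz' 3 (by norm_num)) q3
    (by rw [map_pow, hza, hq3]) (by rw [map_pow, hzb, hq3'])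
  obtain ⟨y4, -, hy4, hy4'⟩ := exists_lift_pair π hπ hK hz hz' hz' (hpow 3 hz) hc
    (hc.symm.pow_right 3) pz' (hne3 hz pz 3 (by norm_num)) q4 (by rw [hza, hzb, hq4])
    (by rw [map_pow, hza, hzb, hq4'])
  have hind : ∀ j : ℕ, z' ≠ z ^ j := by
    intro j e
    have h := congrArg π e
    rw [map_pow, hza, hzb, pow_eq_pow_mod j ha7] at h
    have := (a14_b14_pow ⟨j % 7, Nat.mod_lt _ (by norm_num)⟩ 0).2
    simp only [Fin.val_zero, pow_zero, mul_one, ← h] at this
    revert this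
    decide +kernel
  obtain ⟨κ, hκ, hκg, hT, hT'⟩ := exists_toral_pair (ℓ := 7) (by norm_num) hsq hq' hζ 3
    (fun f hf hne L L' h3 hL hL7 => fix7 hf hne (by simpa using h3) hL hL7) i hi hig hz hz' hc
    (fun e => pz (by rw [e, map_one])) hind hy3 hy3'
  obtain ⟨a, hla⟩ := exists_log hζ hT (by rw [← map_pow, hz, map_one])
  obtain ⟨b, hlb⟩ := exists_log hζ hT' (by rw [← map_pow, hz', map_one])
  have hcj : ∀ {x s t : H}, x * s * x⁻¹ = t → κ x * κ s * (κ x)⁻¹ = κ t := fun h => by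
    rw [← map_inv, ← map_mul, ← map_mul, h]
  obtain ⟨L1, e1, e1'⟩ := exists_move_pair hζ (hκg y1) hla hlb hla (hlb.pow hζ 2) (hcj hy1)
    (by rw [hcj hy1', map_pow])
  obtain ⟨L2, e2, e2'⟩ := exists_move_pair hζ (hκg y3) hla hlb (hla.pow hζ 3) (hlb.pow hζ 3)
    (by rw [hcj hy3, map_pow]) (by rw [hcj hy3', map_pow])
  obtain ⟨L3, e3, e3'⟩ := exists_move_pair hζ (hκg y4) hla hlb hlb (hla.pow hζ 3) (hcj hy4)
    (by rw [hcj hy4', map_pow])
  have hane' := ne_zero_of_isLog hκ (fun e => pz (by rw [e, map_one])) hla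
  have habne : (fun s => a s + b s) ≠ 0 := by
    intro h0
    have hb6 : b = fun s => ((6 : ℕ) : ZMod 7) * a s := funext fun s => by
      have h := congrFun h0 s
      simp only [Pi.zero_apply] at h
      rw [eq_neg_of_add_eq_zero_right h, neg7]
    refine hind 6 (hκ ?_)
    rw [map_pow]
    exact hlb.unique (hb6 ▸ hla.pow hζ 6)
  obtain ⟨-, hzb12, M, hM⟩ := zc_twelve hla.1 hlb.1 hane' habne e1 (by simpa using e1')
    (by simpa using e2) (by simpa using e2') e3 (by simpa using e3')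
  refine second7 (isLin_wperm hla.1 M) (isLin_wperm hlb.1 M) hM
    (L := M.reverse ++ L1.reverse ++ M) (fun s => ?_) (fun s => ?_) ((zc_perm b _).trans hzb12)
  · rw [comp_scale (f := a) (k := (1 : ZMod 7)) (fun r => by rw [one_mul]; exact reverse_scale (g := a) e1 r) M s,
      one_mul]
  · exact comp_scale (f := b) (fun r => reverse_scale (f := fun r => 2 * b r) (g := b) (by simpa using e1') r) M s

end CfsgLib.E7Alt65
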