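import Cfsg.Agent.E7AltSection65.Orbits
import Cfsg.Agent.E6AltSection65.Toral
import Cfsg.Agent.F4AltSection.Alternating
import Cfsg.Agent.ChevField.Map
import Cfsg.Agent.Chevalley.Eval
import Mathlib.RingTheory.RootsOfUnity.PrimitiveRoots
import Mathlib.FieldTheory.Finite.Extension

/-!
Torus elements of prime order as linear functions on the roots of type E7, base change and indices.
-/

set_option autoImplicit false

namespace CfsgLib.E7Alt65

open Cfsg.Lie CfsgLib.Chevalley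

local notation "S" => sysE7

section

variable {F : Type*} [Field F] {ℓ : ℕ} [Fact ℓ.Prime] {ζ : Fˣ}

/-- The linear function giving the values of a torus element as powers of `ζ`. -/
def IsLog (ζ : Fˣ) (t : GL chevE7.Idx F) (f : Fin chevE7.nroots → ZMod ℓ) : Prop :=
  IsLin f ∧ ∃ c : ℕ → Fˣ, tor chevE7 F c = t ∧
    ∀ s : Fin chevE7.nroots, torusVal chevE7 c s = ζ ^ (f s).val

theorem zeta_inj (hζ : orderOf ζ = ℓ) {a b : ZMod ℓ} (h : ζ ^ a.val = ζ ^ b.val) : a = b := by
  rw [pow_eq_pow_iff_modEq, hζ, ← ZMod.natCast_eq_natCast_iff, ZMod.natCast_zmod_val,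
    ZMod.natCast_zmod_val] at h
  exact h

theorem zeta_val (hζ : orderOf ζ = ℓ) (k : ℤ) : ζ ^ (k : ZMod ℓ).val = ζ ^ k := by
  rw [← zpow_natCast, zpow_eq_zpow_iff_modEq, hζ, ← ZMod.intCast_eq_intCast_iff, Int.cast_natCast,
    ZMod.natCast_zmod_val]

theorem mem_diagonal_of_isLog {t : GL chevE7.Idx F} {f : Fin chevE7.nroots → ZMod ℓ}
    (h : IsLog ζ t f) : t ∈ chevE7.diagonalSubgroup F := by
  obtain ⟨-, c, rfl, -⟩ := h
  rw [Sys.diagonal_eq S]
  exact ⟨c, rfl⟩

theorem IsLog.entry {t : GL chevE7.Idx F} {f : Fin chevE7.nroots → ZMod ℓ} (h : IsLog ζ t f)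
    (s : Fin chevE7.nroots) :
    (t : Matrix chevE7.Idx chevE7.Idx F) (Sum.inr s) (Sum.inr s) = ((ζ ^ (f s).val : Fˣ) : F) := by
  obtain ⟨-, c, rfl, hc⟩ := h
  rw [Sys.tor_val S, ← hc s]
  simp [dg]

theorem tor_ext {c c' : ℕ → Fˣ}
    (h : ∀ s : Fin chevE7.nroots, torusVal chevE7 c s = torusVal chevE7 c' s) :
    tor chevE7 F c = tor chevE7 F c' := by
  apply Units.ext
  rw [Sys.tor_val S, Sys.tor_val S]
  exact dg_congr fun s hs => by rw [h ⟨s, hs⟩]

theorem IsLog.unique {t t' : GL chevE7.Idx F} {f : Fin chevE7.nroots → ZMod ℓ}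
    (h : IsLog ζ t f) (h' : IsLog ζ t' f) : t = t' := by
  obtain ⟨-, c, rfl, hc⟩ := h
  obtain ⟨-, c', rfl, hc'⟩ := h'
  exact tor_ext fun s => by rw [hc, hc']

theorem isLog_one (ζ : Fˣ) : IsLog ζ (1 : GL chevE7.Idx F) (0 : Fin chevE7.nroots → ZMod ℓ) := by
  refine ⟨fun s => by simp, 1, map_one _, fun s => ?_⟩
  simp [torusVal]

theorem IsLog.pow (hζ : orderOf ζ = ℓ) {t : GL chevE7.Idx F} {f : Fin chevE7.nroots → ZMod ℓ}
    (h : IsLog ζ t f) (k : ℕ) : IsLog ζ (t ^ k) (fun s => (k : ZMod ℓ) * f s) := by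
  obtain ⟨hl, c, rfl, hc⟩ := h
  refine ⟨isLin_smul hl _, c ^ k, map_pow _ _ _, fun s => ?_⟩
  have h1 : torusVal chevE7 (c ^ k) s = torusVal chevE7 c s ^ k := by
    simp only [torusVal, Pi.pow_apply, ← Finset.prod_pow]
    refine Finset.prod_congr rfl fun j _ => ?_
    rw [← zpow_natCast, ← zpow_natCast (c j ^ _), ← zpow_mul, ← zpow_mul, mul_comm]
  rw [h1, hc, ← pow_mul, pow_eq_pow_iff_modEq, hζ, ← ZMod.natCast_eq_natCast_iff, Nat.cast_mul,
    ZMod.natCast_zmod_val, ZMod.natCast_zmod_val, mul_comm]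

/-- Existence of logarithms. -/
theorem exists_log [Fintype F] (hζ : orderOf ζ = ℓ) {t : GL chevE7.Idx F}
    (ht : t ∈ chevE7.diagonalSubgroup F) (hℓ : t ^ ℓ = 1) :
    ∃ f : Fin chevE7.nroots → ZMod ℓ, IsLog ζ t f := by
  obtain ⟨c, rfl⟩ := (Sys.diagonal_eq S (F := F)) ▸ ht
  have hroot : ∀ s : Fin chevE7.nroots, torusVal chevE7 c s ^ ℓ = 1 := fun s => by
    have h' := congrArg (fun M : GL chevE7.Idx F =>
      (M : Matrix chevE7.Idx chevE7.Idx F) (Sum.inr s) (Sum.inr s)) hℓ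
    rw [← map_pow] at h'
    simp only [Sys.tor_val S, dg, Matrix.diagonal_apply_eq, Sum.elim_inr, Units.val_one,
      Matrix.one_apply_eq] at h'
    have h1 : torusVal chevE7 (c ^ ℓ) s = torusVal chevE7 c s ^ ℓ := by
      simp only [torusVal, Pi.pow_apply, ← Finset.prod_pow]
      refine Finset.prod_congr rfl fun j _ => ?_
      rw [← zpow_natCast, ← zpow_natCast (c j ^ _), ← zpow_mul, ← zpow_mul, mul_comm]
    rw [h1] at h'
    exact Units.ext (by simpa using h')
  have hroots : Subgroup.zpowers ζ = rootsOfUnity ℓ F :=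
    IsPrimitiveRoot.zpowers_eq (hζ ▸ IsPrimitiveRoot.orderOf ζ)
  have hlog : ∀ s : Fin chevE7.nroots, ∃ e : ℤ, ζ ^ e = torusVal chevE7 c s := fun s => by
    rw [← Subgroup.mem_zpowers_iff, hroots, mem_rootsOfUnity]
    exact hroot s
  choose e he using hlog
  refine ⟨fun s => (e s : ZMod ℓ), fun s => ?_, c, rfl, fun s => by rw [zeta_val hζ, he]⟩
  refine zeta_inj hζ ?_
  have : ∑ m : Fin 7, (Sys.vec S m s : ZMod ℓ) * (e (sf m) : ZMod ℓ) =
      ((∑ m : Fin 7, Sys.vec S m s * e (sf m) : ℤ) : ZMod ℓ) := by push_cast; rfl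
  rw [this, zeta_val hζ, zeta_val hζ, he, CfsgLib.F4AltSection.torusVal_vec S c s.isLt, Finset.prod_range,
    prod_zpow_sum ζ Finset.univ _]
  refine Finset.prod_congr rfl fun m _ => ?_
  rw [mul_comm, zpow_mul, he]
  rfl

/-- Monomial conjugation composes the logarithm with the inverse of the permutation. -/
theorem IsLog.conj (hζ : orderOf ζ = ℓ) {t t' : GL chevE7.Idx F}
    {f f' : Fin chevE7.nroots → ZMod ℓ} (h : IsLog ζ t f) (h' : IsLog ζ t' f')
    (n : ↥(chevE7.monomialSubgroup F))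
    (e : (n : GL chevE7.Idx F) * t * (n : GL chevE7.Idx F)⁻¹ = t') (s : Fin chevE7.nroots) :
    f' (Sys.perm S F n s) = f s := by
  obtain ⟨-, c, rfl, hc⟩ := h
  obtain ⟨-, c', rfl, hc'⟩ := h'
  refine zeta_inj hζ ?_
  rw [← hc, ← hc', CfsgLib.F4AltSection.torusVal_perm S n e]

/-- The logarithm of a conjugate. -/
theorem IsLog.exists_conj [Fintype F] (hζ : orderOf ζ = ℓ) {t : GL chevE7.Idx F}
    {f : Fin chevE7.nroots → ZMod ℓ} (h : IsLog ζ t f) {L : List (Fin chevE7.rank)}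
    (n : ↥(chevE7.monomialSubgroup F)) (hn : Sys.perm S F n = Sys.wperm S L) :
    IsLog ζ ((n : GL chevE7.Idx F)⁻¹ * t * (n : GL chevE7.Idx F))
      (fun s => f (Sys.wperm S L s)) := by
  obtain ⟨hl, c, rfl, hc⟩ := h
  set t' := (n : GL chevE7.Idx F)⁻¹ * tor chevE7 F c * (n : GL chevE7.Idx F)
  have ht : t' ∈ chevE7.diagonalSubgroup F := by
    have hd : tor chevE7 F c ∈ chevE7.diagonalSubgroup F := by
      rw [Sys.diagonal_eq S]; exact ⟨c, rfl⟩
    simpa [t'] using (Subgroup.mem_normalizer_iff.mp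
      (Sys.monomial_le_normalizer S F (inv_mem n.2)) _).mp hd
  obtain ⟨c', hc'⟩ := (Sys.diagonal_eq S (F := F)) ▸ ht
  refine ⟨isLin_wperm hl L, c', hc', fun s => ?_⟩
  rw [← hc, ← hn]
  refine (CfsgLib.F4AltSection.torusVal_perm S n (c := c') (c' := c) ?_ s).symm
  rw [hc']
  simp [t', mul_assoc]

end

/-- Base change to a finite extension with `m ∣ q - 1`, for `m` prime to the characteristic. -/
theorem exists_baseChange {F : Type*} [Field F] [Fintype F] (p : ℕ) [Fact p.Prime] [CharP F p]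
    {m : ℕ} (hm : Nat.Coprime p m) :
    ∃ (E : Type) (_ : Field E) (_ : Fintype E) (_ : CharP E p)
      (f : ↥(chevE7.group F) →* ↥(chevE7.group E)),
      Function.Injective f ∧ m ∣ Fintype.card E - 1 := by
  have hm0 : m ≠ 0 := by
    rintro rfl
    exact (Fact.out : p.Prime).ne_one (by simpa using hm)
  haveI : NeZero m.totient := ⟨(Nat.totient_pos.mpr (Nat.pos_of_ne_zero hm0)).ne'⟩
  haveI : Module.Finite F (FiniteField.Extension F p m.totient) := Module.Finite.of_finite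
  let E := FiniteField.Extension F p m.totient
  haveI : Fintype E := Fintype.ofFinite E
  let ι : F →+* E := algebraMap F E
  haveI : CharP E p := charP_of_injective_ringHom ι.injective p
  refine ⟨E, inferInstance, inferInstance, inferInstance,
    ((CfsgLib.ChevField.gmap chevE7 ι).comp (chevE7.group F).subtype).codRestrict _
      fun g => CfsgLib.ChevField.gmap_mem S ι g.2, fun a b h => ?_, ?_⟩
  · exact Subtype.ext (CfsgLib.ChevField.gmap_injective ι (congrArg Subtype.val h))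
  · rw [← Nat.card_eq_fintype_card (α := E), Module.natCard_eq_pow_finrank (K := F),
      FiniteField.finrank_extension F p m.totient, Nat.card_eq_fintype_card]
    obtain ⟨a, -, ha⟩ := FiniteField.card F p
    refine (Nat.modEq_iff_dvd' (Nat.one_le_pow _ _ Fintype.card_pos)).mp ?_
    exact (Nat.ModEq.pow_totient (by rw [ha]; exact hm.pow_left _)).symm

/-- A monomial element inducing conjugation between torus elements. -/
theorem exists_perm_scale {F : Type*} [Field F] [Fintype F] {ℓ : ℕ} [Fact ℓ.Prime] {ζ : Fˣ}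
    (hζ : orderOf ζ = ℓ) {t g : GL chevE7.Idx F} (hg : g ∈ chevE7.group F)
    {f : Fin chevE7.nroots → ZMod ℓ} (h : IsLog ζ t f) {j : ℕ} (e : g * t * g⁻¹ = t ^ j) :
    ∃ L : List (Fin chevE7.rank), ∀ s, (j : ZMod ℓ) * f (Sys.wperm S L s) = f s := by
  obtain ⟨n, hn⟩ := CfsgLib.F4AltSection.exists_monomial_conj S hg
  have htd := mem_diagonal_of_isLog h
  have e' : (n : GL chevE7.Idx F) * t * (n : GL chevE7.Idx F)⁻¹ = t ^ j := by
    rw [← hn t htd (e ▸ pow_mem htd j), e]
  obtain ⟨L, hL⟩ := Sys.exists_wperm S F n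
  exact ⟨L, fun s => by rw [← hL]; exact h.conj hζ (h.pow hζ j) n e' s⟩

/-- The index of the monomial subgroup is prime to `ℓ`. -/
theorem index_monomial {F : Type*} [Field F] [Fintype F] {ℓ : ℕ} [Fact ℓ.Prime]
    (hdiv : ℓ ∣ 2903040) (hq : ℓ ^ 2 ∣ Fintype.card F - 1) (hsq : ¬ ℓ ^ 2 ∣ 2903040) :
    ¬ ℓ ∣ ((chevE7.monomialSubgroup F).subgroupOf (chevE7.group F)).index := by
  classical
  have hN : Nat.card ↥(chevE7.monomialSubgroup F) =
      Nat.card ↥(chevE7.diagonalSubgroup F) * 2903040 := by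
    have hrange : (Sys.perm S F).range = CfsgLib.F4AltSection.weylPerms S := by
      refine le_antisymm ?_ ?_
      · rintro _ ⟨n, rfl⟩
        exact Sys.exists_wperm S F n
      · rintro _ ⟨L, rfl⟩
        exact ⟨Sys.wN S F L, Sys.perm_wN S F L⟩
    have h1 := (Sys.perm S F).ker.card_mul_index
    rw [Subgroup.index_ker, hrange, natCard_weyl, Sys.ker_perm S F] at h1
    rw [← h1]
    congr 1
    exact Nat.card_congr (Subgroup.subgroupOfEquivOfLe
      (le_sup_left : chevE7.diagonalSubgroup F ≤ chevE7.monomialSubgroup F)).toEquiv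
  have h := ((chevE7.monomialSubgroup F).subgroupOf (chevE7.group F)).card_mul_index
  rw [Nat.card_congr (Subgroup.subgroupOfEquivOfLe (Sys.monomial_le_group S F)).toEquiv] at h
  set I := ((chevE7.monomialSubgroup F).subgroupOf (chevE7.group F)).index
  intro h5
  obtain ⟨j, hj⟩ := h5
  have hG := Sys.natCard_group S F
  have e : ((2903040 * I : ℕ) : ℤ) = ((Fintype.card F : ℤ) ^ (chevE7.nroots / 2) *
      Sys.lenSum S (List.range chevE7.rank) (Fintype.card F)) := by
    refine mul_left_cancel₀ (a := (Nat.card ↥(chevE7.diagonalSubgroup F) : ℤ))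
      (Int.natCast_ne_zero.mpr Nat.card_pos.ne') ?_
    rw [← Nat.cast_mul, ← mul_assoc, ← hN, h, hG]
    ring
  have hq1 : ((Fintype.card F : ℕ) : ZMod (ℓ ^ 2)) = 1 := by
    rw [← Nat.cast_one, ZMod.natCast_eq_natCast_iff, Nat.ModEq.comm,
      Nat.modEq_iff_dvd' Fintype.card_pos]
    exact hq
  have hW : (Sys.wSet S (List.range chevE7.rank)).card = 2903040 := by
    rw [← CfsgLib.F4AltSection.natCard_weylPerms, natCard_weyl]
  have e' := congrArg (fun z : ℤ => (z : ZMod (ℓ ^ 2))) e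
  simp only [Int.cast_natCast, Int.cast_mul, Int.cast_pow, hq1, one_pow, one_mul,
    Sys.lenSum, Int.cast_sum, Finset.sum_const, nsmul_eq_mul, mul_one, hW] at e'
  obtain ⟨m, hm⟩ := hdiv
  have h0 : ((2903040 * I : ℕ) : ZMod (ℓ ^ 2)) = 0 := by
    rw [ZMod.natCast_eq_zero_iff, hj, hm]
    exact ⟨m * j, by ring⟩
  rw [h0] at e'
  exact hsq ((ZMod.natCast_eq_zero_iff _ _).mp e'.symm)

/-- There are at most `ℓ ^ 7` torus elements of order dividing `ℓ`. -/
theorem card_torsion {F : Type*} [Field F] [Fintype F] {ℓ : ℕ} [Fact ℓ.Prime] {ζ : Fˣ}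
    (hζ : orderOf ζ = ℓ) :
    Nat.card {t : GL chevE7.Idx F // t ∈ chevE7.diagonalSubgroup F ∧ t ^ ℓ = 1} ≤ ℓ ^ chevE7.rank := by
  classical
  choose f hf using fun t : {t : GL chevE7.Idx F // t ∈ chevE7.diagonalSubgroup F ∧ t ^ ℓ = 1} =>
    exists_log hζ t.2.1 t.2.2
  refine le_trans (Nat.card_le_card_of_injective (fun t => fun m : Fin 7 => f t (sf m))
    fun s t h => Subtype.ext ((hf s).unique ?_)) ?_
  · rw [lin_ext (hf s).1 (hf t).1 (congrFun h)]
    exact hf t
  · simp [show chevE7.rank = 7 from rfl]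

/-- The entries of a monomial element. -/
theorem monomial_entry {F : Type*} [Field F] (n : ↥(chevE7.monomialSubgroup F))
    (s : Fin chevE7.nroots) {row : chevE7.Idx} (h : row ≠ Sum.inr (Sys.perm S F n s)) :
    ((n : GL chevE7.Idx F) : Matrix chevE7.Idx chevE7.Idx F) row (Sum.inr s) = 0 := by
  have hm := (Sys.exists_mono S F n.2).choose_spec
  change Mono chevE7 ((n : GL chevE7.Idx F) : Matrix chevE7.Idx chevE7.Idx F) (Sys.perm S F n) at hm
  rcases row with i | u
  · exact hm.2.1 i s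
  · by_contra hne
    exact h (congrArg Sum.inr (hm.1 u s hne))

end CfsgLib.E7Alt65
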