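import Cfsg.Agent.E7AltSection65.WeylDefs
import Cfsg.Agent.Chevalley.Eval

/-! The certified searches in the Weyl group of type E7. -/

set_option autoImplicit false

namespace CfsgLib.E7Alt65

open Cfsg.Lie CfsgLib.Chevalley

theorem coef_eq : ∀ r : Fin 126, ∀ j : Fin 7, (coef r j : ℤ) = tabE7.coord 7 j r + 4 := by
  decide +kernel

theorem pT_eq : ∀ r t : Fin 126, (pT r t : ℤ) = chevE7.pairing r t + 4 := by decide +kernel

theorem sp_eq : ∀ i : Fin 7, sp i = chevE7.simple i := by decide +kernel

theorem gram_eq : ∀ j k : Fin 7, ∑ s : Fin 126, ((coef s j : ℤ) - 4) * ((coef s k : ℤ) - 4) =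
    (gramE j k : ℤ) := by decide +kernel

/-- Coefficients of the highest root. -/
def theta (i : Fin 7) : ℤ := ([2, 2, 3, 4, 3, 2, 1].getD (i : ℕ) 0 : ℕ)

theorem gram_zero : ∀ m : Fin 7, (gramE (0 : Fin 7) m : ℤ) = 36 * theta m := by decide +kernel

/-- The sum of the positive roots under a fundamental reflection. -/
theorem pos_refl : ∀ i m : Fin 7,
    ∑ s : Fin 63, ((coef (chevE7.reflectRoot i (63 + s)) m : ℤ) - 4) =
      (∑ s : Fin 63, ((coef (63 + s) m : ℤ) - 4)) - if i = m then 2 else 0 := by decide +kernel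

/-- The representatives modulo seven admitting a scaling by three. -/
def list7 : List (List ℕ) :=
  (reps 7).filter fun φ => decide (φ ≠ [0, 0, 0, 0, 0, 0, 0]) && sclInv 7 3 φ

theorem list7_cnt : list7.all (fun φ => cnt 7 φ 0 == 30 || cnt 7 φ 0 == 24 ||
    (cnt 7 φ 0 == 12 && (φ == a7 || φ == a7'))) = true := by decide +kernel

theorem list5_eq : ((reps 5).filter fun φ => decide (φ ≠ [0, 0, 0, 0, 0, 0, 0]) && sclInv 5 2 φ).all
    (fun φ => φ == a5 || φ == a5') = true := by decide +kernel

theorem toBase_eq : via 7 a7' (imgs toBase) = a7 ∧ via 5 a5' (imgs toBase) = a5 := by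
  decide +kernel

theorem toBase_lt : ∀ i ∈ toBase, i < 7 := by decide

theorem cnt_a5 : cnt 5 a5 0 = 26 := by decide +kernel

/-- No function fixed by an element of order seven scales. -/
theorem fixed7 : ((List.range 49).all fun n =>
    let φ := [n / 7, n % 7, n / 7, n / 7, n / 7, n / 7, n / 7]
    !(via 7 φ (imgs [0, 2, 3, 4, 5, 6]) == φ) || n == 0 ||
      !(cnt 7 φ 0 == 30 || cnt 7 φ 0 == 24 || cnt 7 φ 0 == 12)) = true := by decide +kernel

theorem cox7 : imgs (List.replicate 7 [0, 2, 3, 4, 5, 6]).flatten = (List.range 7).map sp ∧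
    imgs [0, 2, 3, 4, 5, 6] ≠ (List.range 7).map sp := by decide +kernel

theorem cox7_chain : ∀ i : Fin 5,
    chevE7.reflectRoot 0 (chevE7.reflectRoot 2 (chevE7.reflectRoot 3 (chevE7.reflectRoot 4
      (chevE7.reflectRoot 5 (chevE7.reflectRoot 6 (sp ([0, 2, 3, 4, 5].getD (i : ℕ) 0))))))) =
      sp ([2, 3, 4, 5, 6].getD (i : ℕ) 0) := by decide +kernel

/-- No function fixed by an element of order five scales. -/
theorem fixed5 : ((List.range 625).all fun n =>
    let φ := [n / 125, n / 25 % 5, n / 125, n / 125, n / 125, n / 5 % 5, n % 5]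
    !(via 5 φ (imgs [0, 2, 3, 4]) == φ) || n == 0 || !(cnt 5 φ 0 == 26) || !sclInv 5 2 φ) =
      true := by decide +kernel

theorem cox5 : imgs (List.replicate 5 [0, 2, 3, 4]).flatten = (List.range 7).map sp ∧
    imgs [0, 2, 3, 4] ≠ (List.range 7).map sp := by decide +kernel

theorem cox5_chain : ∀ i : Fin 3,
    chevE7.reflectRoot 0 (chevE7.reflectRoot 2 (chevE7.reflectRoot 3 (chevE7.reflectRoot 4
      (sp ([0, 2, 3].getD (i : ℕ) 0))))) = sp ([2, 3, 4].getD (i : ℕ) 0) := by decide +kernel

/-- The shape of the elements fixing the base function modulo seven. -/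
def shape7 (σ : List ℕ) : Bool :=
  ([1, 4, 6].all fun j => (List.range 7).all fun m =>
    if m = j then coef (σ.getD j 0) m == 5 || coef (σ.getD j 0) m == 3 else coef (σ.getD j 0) m == 4) &&
  ([3, 5].all fun j => [3, 5].all fun m => coef (σ.getD j 0) m == if m = j then 5 else 4)

theorem stab7_shape : (maps 7 a7 1).all shape7 = true := by decide +kernel

theorem search7 : ((maps 7 a7 1).all fun σ => (List.range 49).all fun n =>
    let b := fill7 (n / 7) (n % 7) σ
    !(via 7 b σ == scl 7 2 b) || !(cnt 7 b 0 == 12)) = true := by decide +kernel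

/-- The zero roots of the base function modulo five preserve the block. -/
theorem block8_chk : ((List.range 126).filter fun r => vmod 5 a5 r == 0).all (fun r =>
    block8.all fun s => (colTerms chevE7 r (7 + s)).all fun q =>
      (block8.map (7 + ·)).contains q.1) = true := by decide +kernel

theorem stab5_block : (maps 5 a5 1).all (fun σ => block8.all fun s => imgMem σ block8 s) = true := by
  decide +kernel

theorem block8_lt : ∀ s ∈ block8, s < 126 := by decide

theorem block8_len : block8.length = 8 := rfl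

/-- Functions vanishing on the block do not scale. -/
theorem block8_ker : ((List.range 25).all fun n =>
    n == 0 || !(cnt 5 [0, 0, 0, 0, 0, n / 5, n % 5] 0 == 26)) = true := by decide +kernel

theorem block8_rows : ∀ i : Fin 5, ∀ m : Fin 7,
    coef ([32, 31, 30, 29, 26].getD (i : ℕ) 0) m =
      if ((([([0] : List ℕ), [0, 2], [0, 2, 3], [0, 2, 3, 4], [0, 1, 2, 3]] : List (List ℕ)).getD
        (i : ℕ) []).contains (m : ℕ)) then 3 else 4 := by decide +kernel

end CfsgLib.E7Alt65
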