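import Cfsg.Agent.E7AltSection65.Tables
import Cfsg.Agent.Chevalley.Data.SysE7
import Cfsg.Prelude.Def_ChevAutomorphisms

/-!
Searches in the Weyl group of type E7: linear functions on the roots modulo a prime are given by
their values on the fundamental roots.
-/

set_option autoImplicit false

namespace CfsgLib.E7Alt65

open Cfsg.Lie CfsgLib.Chevalley

/-- Biased coordinate of a root. -/
def coef (r j : ℕ) : ℕ := (coefTab >>> (4 * (7 * r + j))) % 16

/-- Biased pairing of roots. -/
def pT (r t : ℕ) : ℕ := (pairTab >>> (4 * (126 * r + t))) % 16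

/-- Indices of the fundamental roots. -/
def sp (i : ℕ) : ℕ := [93, 78, 73, 69, 66, 64, 63].getD i 0

/-- Coefficients of the invariant quadratic form. -/
def gramE (i j : ℕ) : ℕ := gramList.getD (7 * i + j) 0

/-- Value at a root given by its biased coordinate word, for seven values on the fundamental roots. -/
def val7 (ℓ w a b c d e f g : ℕ) : ℕ :=
  (w % 16 * a + (w >>> 4) % 16 * b + (w >>> 8) % 16 * c + (w >>> 12) % 16 * d +
    (w >>> 16) % 16 * e + (w >>> 20) % 16 * f + (w >>> 24) % 16 * g +
      (4 * ℓ - 4) * (a + b + c + d + e + f + g)) % ℓ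

/-- Value on a root of the function with the given values on the fundamental roots. -/
def vmod (ℓ : ℕ) (φ : List ℕ) (r : ℕ) : ℕ :=
  match φ with
  | [a, b, c, d, e, f, g] => val7 ℓ (coefTab >>> (28 * r)) a b c d e f g
  | _ => 0

/-- Composition with the map given by the images of the fundamental roots. -/
def via (ℓ : ℕ) (φ : List ℕ) (σ : List ℕ) : List ℕ := σ.map fun r => vmod ℓ φ r

/-- Scaling. -/
def scl (ℓ k : ℕ) (φ : List ℕ) : List ℕ := φ.map fun a => (k * a) % ℓ

/-- The number of roots with the given value. -/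
def cnt (ℓ : ℕ) (φ : List ℕ) (v : ℕ) : ℕ :=
  (List.range 126).countP fun r => vmod ℓ φ r == v

/-- The distribution of values is invariant under scaling. -/
def sclInv (ℓ k : ℕ) (φ : List ℕ) : Bool :=
  (List.range ℓ).all fun v => cnt ℓ φ v == cnt ℓ φ (k * v % ℓ)

/-- Roots on which the function takes the `k`-fold of its value at the `i`-th fundamental root. -/
def cand (ℓ : ℕ) (φ : List ℕ) (k i : ℕ) : List ℕ :=
  (List.range 126).filter fun r => vmod ℓ φ r == (k * φ.getD i 0) % ℓ

/-- The pairings of `r`, `t` are those of the fundamental roots `i`, `j`. -/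
def comp (i j r t : ℕ) : Bool := pT r t == pT (sp i) (sp j)

/-- Extensions of a partial assignment of images of fundamental roots. -/
def ext (cd : ℕ → List ℕ) : List ℕ → List (ℕ × ℕ) → List (List (ℕ × ℕ))
  | [], acc => [acc]
  | i :: is, acc =>
    ((cd i).filter fun a => acc.all fun e => comp i e.1 a e.2).flatMap fun a =>
      ext cd is ((i, a) :: acc)

/-- The images in the order of the fundamental roots. -/
def sortImg : List (ℕ × ℕ) → List ℕ
  | [(_, g), (_, f), (_, e), (_, b), (_, d), (_, c), (_, a)] => [a, b, c, d, e, f, g]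
  | _ => []

/-- Candidates for the images of the fundamental roots under elements scaling the function. -/
def maps (ℓ : ℕ) (φ : List ℕ) (k : ℕ) : List (List ℕ) :=
  (ext (cand ℓ φ k) [0, 2, 3, 1, 4, 5, 6] []).map sortImg

/-- Images of the fundamental roots under a word. -/
def imgs (L : List ℕ) : List ℕ :=
  (List.range 7).map fun j => L.foldr (fun i r => chevE7.reflectRoot i r) (sp j)

/-- Coordinates of the image of a root, biased by forty. -/
def imgCoord (σ : List ℕ) (r m : ℕ) : ℕ :=
  ((List.range 7).map fun j => (coef r j : ℕ) * coef (σ.getD j 0) m + 16).sum + 40 -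
    ((List.range 7).map fun j => 4 * coef r j + 4 * coef (σ.getD j 0) m).sum

/-- The image of a root lies among the given ones. -/
def imgMem (σ : List ℕ) (B : List ℕ) (r : ℕ) : Bool :=
  B.any fun t => (List.range 7).all fun m => imgCoord σ r m + 4 == coef t m + 40

/-- Representatives: dominant functions below the wall of the highest root. -/
def reps (ℓ : ℕ) : List (List ℕ) :=
  (List.range (ℓ / 2 + 1)).flatMap fun a => (List.range (ℓ / 2 + 1)).flatMap fun b =>
    (List.range (ℓ / 3 + 1)).flatMap fun c => (List.range (ℓ / 4 + 1)).flatMap fun d =>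
      (List.range (ℓ / 3 + 1)).flatMap fun e => (List.range (ℓ / 2 + 1)).flatMap fun f =>
        ((List.range (ℓ + 1)).filter fun g => 2 * a + 2 * b + 3 * c + 4 * d + 3 * e + 2 * f + g ≤ ℓ).map
          fun g => [a % ℓ, b % ℓ, c % ℓ, d % ℓ, e % ℓ, f % ℓ, g % ℓ]

/-- The base functions modulo seven with twelve zeros. -/
def a7 : List ℕ := [0, 0, 0, 1, 0, 1, 0]

/-- The second such representative. -/
def a7' : List ℕ := [1, 0, 0, 1, 0, 0, 1]

/-- The base function modulo five. -/
def a5 : List ℕ := [1, 0, 0, 0, 0, 1, 0]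

/-- The second such representative. -/
def a5' : List ℕ := [1, 0, 0, 0, 0, 1, 1]

/-- A word carrying the second representative to the first. -/
def toBase : List ℕ :=
  [6, 5, 4, 3, 1, 2, 0, 3, 2, 4, 3, 1, 5, 4, 3, 2, 0, 6, 5, 4, 3, 1, 2, 3, 4, 5]

/-- A block of eight roots for the centraliser of the base function modulo five. -/
def block8 : List ℕ := [16, 22, 25, 26, 29, 30, 31, 32]

/-- Completion of values fixed by a permutation of order three in the stabiliser. -/
def fill7 (x y : ℕ) (σ : List ℕ) : List ℕ :=
  let φ := [x, 0, y, 0, 0, 0, 0]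
  [x, vmod 7 φ (σ.getD 1 0) , y, vmod 7 φ (σ.getD 3 0), vmod 7 φ (σ.getD 4 0),
    vmod 7 φ (σ.getD 5 0), vmod 7 φ (σ.getD 6 0)]

end CfsgLib.E7Alt65
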