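import Cfsg.Agent.E7AltSection65.WeylCheck
import Cfsg.Agent.Chevalley.Weights.E7
import Cfsg.Agent.F4AltSection.Torus
import Mathlib.Data.ZMod.Basic
import Mathlib.GroupTheory.Sylow
import Mathlib.Tactic

/-!
Linear functions on the roots of type E7 and the soundness of the searches.
-/

set_option autoImplicit false
set_option maxRecDepth 4000

namespace CfsgLib.E7Alt65

open Cfsg.Lie CfsgLib.Chevalley

local notation "S" => sysE7

/-- The fundamental roots, indexed by `Fin 7`. -/
noncomputable abbrev sf (i : Fin 7) : Fin chevE7.nroots := Sys.simpleF S i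

theorem sf_val (i : Fin 7) : (sf i : ℕ) = sp i := (sp_eq i).symm

theorem vec_eq (j : Fin 7) (s : Fin chevE7.nroots) :
    Sys.vec S j s = (coef s j : ℤ) - 4 := by
  have h := coef_eq s j
  show tabE7.coord 7 j s = _
  omega

theorem map_range_seven {α : Type*} (g : ℕ → α) :
    (List.range 7).map g = [g 0, g 1, g 2, g 3, g 4, g 5, g 6] := rfl

theorem vec_sf (j i : Fin 7) : Sys.vec S j (sf i) = if (j : ℕ) = i then 1 else 0 :=
  Sys.vec_simple S i i.isLt j j.isLt

section
variable {R : Type*} [CommRing R]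

/-- Linear functions on the roots. -/
def IsLin (f : Fin chevE7.nroots → R) : Prop :=
  ∀ s, f s = ∑ m : Fin 7, (Sys.vec S m s : R) * f (sf m)

theorem isLin_smul {f : Fin chevE7.nroots → R} (hf : IsLin f) (k : R) :
    IsLin fun s => k * f s := by
  intro s
  show k * f s = _
  rw [hf s, Finset.mul_sum]
  exact Finset.sum_congr rfl fun m _ => by ring

theorem isLin_add {f g : Fin chevE7.nroots → R} (hf : IsLin f) (hg : IsLin g) :
    IsLin fun s => f s + g s := by
  intro s
  show f s + g s = _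
  rw [hf s, hg s, ← Finset.sum_add_distrib]
  exact Finset.sum_congr rfl fun m _ => by ring

theorem isLin_wperm {f : Fin chevE7.nroots → R} (hf : IsLin f)
    (L : List (Fin chevE7.rank)) : IsLin fun s => f (Sys.wperm S L s) := by
  intro s
  show f (Sys.wperm S L s) = ∑ m : Fin 7, (Sys.vec S m s : R) * f (Sys.wperm S L (sf m))
  rw [hf (Sys.wperm S L s)]
  have h : ∀ j : Fin 7, (Sys.vec S j (Sys.wperm S L s) : R) =
      ∑ m : Fin 7, (Sys.vec S m s : R) * (Sys.vec S j (Sys.wperm S L (sf m)) : R) :=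
    fun j => by
      rw [Sys.vec_wperm S L s j j.isLt]
      push_cast
      rfl
  simp only [h, Finset.sum_mul]
  rw [Finset.sum_comm]
  refine Finset.sum_congr rfl fun m _ => ?_
  rw [hf (Sys.wperm S L (sf m)), Finset.mul_sum]
  exact Finset.sum_congr rfl fun j _ => mul_assoc _ _ _

/-- The linear function with given values on the fundamental roots. -/
noncomputable def mkLin (v : Fin 7 → R) : Fin chevE7.nroots → R :=
  fun s => ∑ m : Fin 7, (Sys.vec S m s : R) * v m

theorem mkLin_sf (v : Fin 7 → R) (i : Fin 7) : mkLin v (sf i) = v i := by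
  rw [mkLin, Finset.sum_eq_single i (fun b _ hb => ?_) (fun h => absurd (Finset.mem_univ i) h)]
  · rw [vec_sf, if_pos rfl, Int.cast_one, one_mul]
  · rw [vec_sf, if_neg fun h => hb (Fin.ext h), Int.cast_zero, zero_mul]

theorem isLin_mkLin (v : Fin 7 → R) : IsLin (mkLin v) := by
  intro s
  simp only [mkLin_sf]
  rfl

theorem lin_ext {f g : Fin chevE7.nroots → R} (hf : IsLin f) (hg : IsLin g)
    (h : ∀ m : Fin 7, f (sf m) = g (sf m)) : f = g := by
  funext s
  rw [hf s, hg s]
  exact Finset.sum_congr rfl fun m _ => by rw [h m]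

end

section
variable {ℓ : ℕ}

/-- The values on the fundamental roots. -/
noncomputable def vals (f : Fin chevE7.nroots → ZMod ℓ) : List ℕ :=
  [(f (sf 0)).val, (f (sf 1)).val, (f (sf 2)).val, (f (sf 3)).val, (f (sf 4)).val, (f (sf 5)).val,
    (f (sf 6)).val]

theorem vals_getD (f : Fin chevE7.nroots → ZMod ℓ) (i : Fin 7) :
    (vals f).getD i 0 = (f (sf i)).val := by fin_cases i <;> rfl

variable [NeZero ℓ]

theorem vmod_vals {f : Fin chevE7.nroots → ZMod ℓ} (hf : IsLin f) (s : Fin chevE7.nroots) :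
    vmod ℓ (vals f) s = (f s).val := by
  have hlt : vmod ℓ (vals f) s < ℓ := Nat.mod_lt _ (NeZero.pos ℓ)
  rw [← ZMod.val_natCast_of_lt hlt]
  congr 1
  have hsh : ∀ j : ℕ, coef s j = (coefTab >>> (28 * (s : ℕ))) >>> (4 * j) % 16 := fun j => by
    rw [coef, ← Nat.shiftRight_add]
    congr 2
    ring
  simp only [vals, vmod, val7, ZMod.natCast_mod, Nat.cast_add, Nat.cast_mul, ZMod.natCast_val,
    ZMod.cast_id', id]
  rw [hf s]
  simp only [fun m : Fin 7 => vec_eq m s, Int.cast_sub, Int.cast_natCast, Int.cast_ofNat]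
  rw [Fin.sum_univ_seven]
  simp only [hsh, Fin.isValue, Fin.val_zero, Fin.val_one, Fin.val_two,
    show ((3 : Fin 7) : ℕ) = 3 from rfl, show ((4 : Fin 7) : ℕ) = 4 from rfl,
    show ((5 : Fin 7) : ℕ) = 5 from rfl, show ((6 : Fin 7) : ℕ) = 6 from rfl, mul_zero,
    Nat.shiftRight_zero]
  push_cast [show 4 * ℓ - 4 = 4 * (ℓ - 1) by omega, Nat.cast_sub (NeZero.one_le (n := ℓ))]
  simp only [show (ℓ : ZMod ℓ) = 0 from ZMod.natCast_self ℓ]
  norm_num
  ring

theorem vals_inj {f g : Fin chevE7.nroots → ZMod ℓ} (hf : IsLin f) (hg : IsLin g)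
    (h : vals f = vals g) : f = g := by
  funext s
  refine ZMod.val_injective ℓ ?_
  rw [← vmod_vals hf, ← vmod_vals hg, h]

theorem vals_smul (f : Fin chevE7.nroots → ZMod ℓ) (k : ℕ) :
    vals (fun s => (k : ZMod ℓ) * f s) = scl ℓ k (vals f) := by
  simp [vals, scl, ZMod.val_mul, ZMod.val_natCast, Nat.mod_mul_mod]

theorem eq_zero_of_vals {f : Fin chevE7.nroots → ZMod ℓ} (hf : IsLin f)
    (h : vals f = [0, 0, 0, 0, 0, 0, 0]) : f = 0 := by
  refine vals_inj hf (fun s => by simp) (h.trans ?_)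
  simp [vals]

/-- The images of the fundamental roots. -/
noncomputable def imgW (L : List (Fin chevE7.rank)) : List ℕ :=
  [(Sys.wperm S L (sf 0) : ℕ), (Sys.wperm S L (sf 1) : ℕ), (Sys.wperm S L (sf 2) : ℕ),
    (Sys.wperm S L (sf 3) : ℕ), (Sys.wperm S L (sf 4) : ℕ), (Sys.wperm S L (sf 5) : ℕ),
    (Sys.wperm S L (sf 6) : ℕ)]

theorem imgW_getD (L : List (Fin chevE7.rank)) (i : Fin 7) :
    (imgW L).getD i 0 = (Sys.wperm S L (sf i) : ℕ) := by fin_cases i <;> rfl

theorem wperm_val (L : List (Fin chevE7.rank)) (s : Fin chevE7.nroots) :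
    (Sys.wperm S L s : ℕ) = (L.map Fin.val).foldr (fun i r => chevE7.reflectRoot i r) s := by
  induction L with
  | nil => rfl
  | cons i L ih =>
    rw [Sys.wperm_cons, Equiv.Perm.mul_apply, Sys.srefl_val, List.map_cons, List.foldr_cons, ih]

theorem imgs_val (L : List (Fin chevE7.rank)) : imgs (L.map Fin.val) = imgW L := by
  simp only [imgs, map_range_seven, imgW, wperm_val, sf_val]
  rfl

theorem imgW_inj {L M : List (Fin chevE7.rank)} (h : imgW L = imgW M) :
    Sys.wperm S L = Sys.wperm S M := by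
  refine Sys.wperm_ext S fun m => Fin.ext ?_
  have e : ∀ i : Fin 7, (imgW L).getD i 0 = (imgW M).getD i 0 := fun i => by rw [h]
  exact (imgW_getD L m).symm.trans ((e m).trans (imgW_getD M m))

theorem imgW_eq_sp {L : List (Fin chevE7.rank)} (h : imgW L = (List.range 7).map sp) :
    Sys.wperm S L = 1 := by
  have h0 : imgW [] = (List.range 7).map sp := by
    rw [← imgs_val]; rfl
  exact imgW_inj (h.trans h0.symm)

theorem vals_wperm {f : Fin chevE7.nroots → ZMod ℓ} (hf : IsLin f)
    (L : List (Fin chevE7.rank)) :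
    vals (fun s => f (Sys.wperm S L s)) = via ℓ (vals f) (imgW L) := by
  simp only [via, imgW, List.map_cons, List.map_nil, vmod_vals hf]
  rfl

theorem cnt_vals {f : Fin chevE7.nroots → ZMod ℓ} (hf : IsLin f) (v : ZMod ℓ) :
    cnt ℓ (vals f) v.val = (Finset.univ.filter fun s => f s = v).card := by
  have hcnt : cnt ℓ (vals f) v.val =
      ((List.finRange chevE7.nroots).filter fun s => decide (f s = v)).length := by
    rw [cnt, List.countP_eq_length_filter,
      show List.range 126 = (List.finRange chevE7.nroots).map Fin.val from List.map_coe_finRange_eq_range.symm,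
      List.filter_map, List.length_map]
    refine congrArg List.length (List.filter_congr fun s _ => ?_)
    rw [Function.comp_apply, vmod_vals hf]
    by_cases h : f s = v
    · rw [decide_eq_true h, h, beq_self_eq_true]
    · rw [decide_eq_false h, beq_eq_false_iff_ne]
      exact fun e => h (ZMod.val_injective ℓ e)
  rw [hcnt, ← List.toFinset_card_of_nodup ((List.nodup_finRange _).filter _)]
  congr 1
  ext s
  simp

end

/-- The number of roots at which the function vanishes. -/
def zc {R : Type*} [Zero R] [DecidableEq R] (f : Fin chevE7.nroots → R) : ℕ :=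
  (Finset.univ.filter fun s => f s = 0).card

theorem zc_perm {R : Type*} [Zero R] [DecidableEq R] (f : Fin chevE7.nroots → R)
    (e : Equiv.Perm (Fin chevE7.nroots)) : zc (fun s => f (e s)) = zc f := by
  refine Finset.card_equiv e fun s => ?_
  simp

theorem zc_vals {ℓ : ℕ} [NeZero ℓ] {f : Fin chevE7.nroots → ZMod ℓ} (hf : IsLin f) :
    zc f = cnt ℓ (vals f) 0 := by
  rw [← ZMod.val_zero (n := ℓ), cnt_vals hf, zc]

theorem scale_count {ℓ : ℕ} [Fact ℓ.Prime] {f : Fin chevE7.nroots → ZMod ℓ} (hf : IsLin f) {k : ℕ}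
    (hk : (k : ZMod ℓ) ≠ 0) (L : List (Fin chevE7.rank))
    (h : ∀ s, f (Sys.wperm S L s) = (k : ZMod ℓ) * f s) : sclInv ℓ k (vals f) = true := by
  simp only [sclInv, List.all_eq_true, List.mem_range, beq_iff_eq]
  intro v hv
  have e1 : v = ((v : ZMod ℓ)).val := (ZMod.val_natCast_of_lt hv).symm
  have e2 : k * v % ℓ = ((k : ZMod ℓ) * (v : ZMod ℓ)).val := by
    rw [← Nat.cast_mul, ZMod.val_natCast]
  rw [e2]
  conv_lhs => rw [e1]
  rw [cnt_vals hf, cnt_vals hf]
  refine Finset.card_equiv (Sys.wperm S L) fun s => ?_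
  simp only [Finset.mem_filter, Finset.mem_univ, true_and, h]
  constructor
  · intro e; rw [e]
  · intro e; exact mul_left_cancel₀ hk e

theorem mem_ext (cd : ℕ → List ℕ) (σ : ℕ → ℕ) :
    ∀ (is : List ℕ) (acc : List (ℕ × ℕ)), (∀ i ∈ is, i < 7 ∧ σ i ∈ cd i) →
      (∀ i < 7, ∀ j < 7, comp i j (σ i) (σ j) = true) → (∀ e ∈ acc, e.1 < 7 ∧ e.2 = σ e.1) →
        ((is.map fun i => (i, σ i)).reverse ++ acc) ∈ ext cd is acc := by
  intro is
  induction is with
  | nil => intro acc _ _ _; simp [ext]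
  | cons i is ih =>
    intro acc hcd hc hacc
    rw [ext, List.mem_flatMap]
    refine ⟨σ i, List.mem_filter.mpr ⟨(hcd i (by simp)).2, ?_⟩, ?_⟩
    · rw [List.all_eq_true]
      exact fun e he => by rw [(hacc e he).2]; exact hc i (hcd i (by simp)).1 e.1 (hacc e he).1
    · have h := ih ((i, σ i) :: acc) (fun j hj => hcd j (by simp [hj])) hc
        (fun e he => by
          rcases List.mem_cons.mp he with rfl | he
          · exact ⟨(hcd _ (by simp)).1, rfl⟩
          · exact hacc e he)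
      simpa using h

theorem pairing_wperm (L : List (Fin chevE7.rank)) (r t : Fin chevE7.nroots) :
    chevE7.pairing (Sys.wperm S L r) (Sys.wperm S L t) = chevE7.pairing r t := by
  induction L with
  | nil => rfl
  | cons i L ih =>
    rw [Sys.wperm_cons, Equiv.Perm.mul_apply, Equiv.Perm.mul_apply, Sys.srefl_val, Sys.srefl_val,
      Sys.pairing_w S i.isLt (Fin.isLt _) (Fin.isLt _), ih]

theorem pT_wperm (L : List (Fin chevE7.rank)) (r t : Fin chevE7.nroots) :
    pT (Sys.wperm S L r) (Sys.wperm S L t) = pT r t := by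
  have h1 := pT_eq (Sys.wperm S L r) (Sys.wperm S L t)
  have h2 := pT_eq r t
  rw [pairing_wperm] at h1
  omega

theorem mem_maps {ℓ : ℕ} [NeZero ℓ] {f : Fin chevE7.nroots → ZMod ℓ} (hf : IsLin f)
    (L : List (Fin chevE7.rank)) (k : ℕ)
    (h : ∀ s, f (Sys.wperm S L s) = (k : ZMod ℓ) * f s) : imgW L ∈ maps ℓ (vals f) k := by
  set σ : ℕ → ℕ := fun i => if hi : i < 7 then (Sys.wperm S L (sf ⟨i, hi⟩) : ℕ) else sp i with hσ
  have hσ' : ∀ i : Fin 7, σ i = Sys.wperm S L (sf i) := fun i => dif_pos i.isLt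
  have hcd : ∀ i ∈ ([0, 2, 3, 1, 4, 5, 6] : List ℕ), i < 7 ∧ σ i ∈ cand ℓ (vals f) k i := by
    intro i hi
    have hi7 : i < 7 := by
      simp only [List.mem_cons, List.not_mem_nil, or_false] at hi
      omega
    rw [show i = ((⟨i, hi7⟩ : Fin 7) : ℕ) from rfl, hσ', cand, List.mem_filter, List.mem_range,
      beq_iff_eq]
    simp only [Fin.eta]
    refine ⟨hi7, Fin.isLt _, ?_⟩
    rw [vmod_vals hf, h, show (vals f).getD i 0 = (f (sf ⟨i, hi7⟩)).val from vals_getD f ⟨i, hi7⟩,
      ZMod.val_mul, ZMod.val_natCast, Nat.mod_mul_mod]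
  have hc : ∀ i < 7, ∀ j < 7, comp i j (σ i) (σ j) = true := by
    intro i hi j hj
    simp only [comp, beq_iff_eq, hσ, dif_pos hi, dif_pos hj, pT_wperm, sf_val]
  have := mem_ext (cand ℓ (vals f) k) σ [0, 2, 3, 1, 4, 5, 6] [] hcd hc (by simp)
  refine List.mem_map.mpr ⟨_, this, ?_⟩
  have e : ∀ i (hi : i < 7), σ i = Sys.wperm S L (sf ⟨i, hi⟩) := fun i hi => dif_pos hi
  simp only [List.map_cons, List.map_nil, List.reverse_cons, List.reverse_nil, List.nil_append,
    List.cons_append, List.append_nil, sortImg, imgW, e 0 (by norm_num), e 1 (by norm_num),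
    e 2 (by norm_num), e 3 (by norm_num), e 4 (by norm_num), e 5 (by norm_num), e 6 (by norm_num)]
  rfl

theorem natCard_weyl : Nat.card ↥(F4AltSection.weylPerms S) = 2903040 := by
  rw [F4AltSection.natCard_weylPerms]
  have h := lenSumE7 (ZMod 2) 1
  simp only [Sys.lenSum, one_pow, Finset.sum_const, nsmul_eq_mul, mul_one] at h
  have h' := h.trans (show _ = ((2903040 : ℕ) : ℤ) by rfl)
  exact_mod_cast h'

/-! Integral lifts and dominant representatives. -/

/-- The invariant form on integral linear functions. -/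
def normZ (G : Fin chevE7.nroots → ℤ) : ℤ := ∑ s, G s ^ 2

theorem normZ_nonneg (G : Fin chevE7.nroots → ℤ) : 0 ≤ normZ G :=
  Finset.sum_nonneg fun s _ => sq_nonneg (G s)

/-- The sum over the positive roots. -/
def posSum (G : Fin chevE7.nroots → ℤ) : ℤ :=
  ∑ s : Fin 63, G (⟨63 + (s : ℕ), by have := s.isLt; show _ < 126; omega⟩ : Fin chevE7.nroots)

theorem posSum_eq {G : Fin chevE7.nroots → ℤ} (hG : IsLin G) :
    posSum G = ∑ m : Fin 7, (∑ s : Fin 63, ((coef (63 + s) m : ℤ) - 4)) * G (sf m) := by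
  simp only [Finset.sum_mul]
  rw [Finset.sum_comm]
  refine Finset.sum_congr rfl fun s _ => ?_
  rw [hG]
  exact Finset.sum_congr rfl fun m _ => by rw [vec_eq, Int.cast_id]

theorem posSum_refl {G : Fin chevE7.nroots → ℤ} (hG : IsLin G) (i : Fin 7) :
    posSum (fun s => G (Sys.srefl S i s)) = posSum G - 2 * G (sf i) := by
  have e : posSum (fun s => G (Sys.srefl S i s)) =
      ∑ m : Fin 7, (∑ s : Fin 63, ((coef (chevE7.reflectRoot i (63 + s)) m : ℤ) - 4)) * G (sf m) := by
    simp only [Finset.sum_mul]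
    rw [Finset.sum_comm]
    refine Finset.sum_congr rfl fun s _ => ?_
    refine (hG _).trans (Finset.sum_congr rfl fun m _ => ?_)
    rw [vec_eq, Int.cast_id]
    exact congrArg (fun r : ℕ => ((coef r m : ℤ) - 4) * G (sf m)) (Sys.srefl_val S i _)
  rw [e, posSum_eq hG, Finset.sum_congr rfl fun m _ => by rw [pos_refl i m, sub_mul],
    Finset.sum_sub_distrib]
  congr 1
  rw [Finset.sum_eq_single i (fun b _ hb => by rw [if_neg hb.symm, zero_mul])
    (fun h => absurd (Finset.mem_univ i) h), if_pos rfl]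

/-- Every linear function modulo `ℓ` is carried into the alcove. -/
theorem exists_rep {ℓ : ℕ} [NeZero ℓ] {f : Fin chevE7.nroots → ZMod ℓ} (hf : IsLin f) :
    ∃ L : List (Fin chevE7.rank), vals (fun s => f (Sys.wperm S L s)) ∈ reps ℓ := by
  classical
  let P : ℕ → Prop := fun n => ∃ (L : List (Fin chevE7.rank)) (G : Fin chevE7.nroots → ℤ),
    IsLin G ∧ (∀ s, (G s : ZMod ℓ) = f (Sys.wperm S L s)) ∧ (normZ G).toNat = n
  have hex : ∃ n, P n := by
    refine ⟨_, [], mkLin (fun m => ((f (sf m)).val : ℤ)), isLin_mkLin _, fun s => ?_, rfl⟩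
    show _ = f s
    rw [hf s, mkLin, Int.cast_sum]
    refine Finset.sum_congr rfl fun m _ => ?_
    push_cast
    rw [ZMod.natCast_val, ZMod.cast_id']
    rfl
  obtain ⟨L₀, G₀, hG₀, hf₀, hN₀⟩ := Nat.find_spec hex
  have hmin : ∀ (L : List (Fin chevE7.rank)) (G : Fin chevE7.nroots → ℤ), IsLin G →
      (∀ s, (G s : ZMod ℓ) = f (Sys.wperm S L s)) → normZ G₀ ≤ normZ G := by
    intro L G hG hGf
    have h1 : Nat.find hex ≤ (normZ G).toNat := Nat.find_min' hex ⟨L, G, hG, hGf, rfl⟩
    rw [← hN₀] at h1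
    have := normZ_nonneg G₀
    have := normZ_nonneg G
    omega
  -- the most dominant image
  obtain ⟨σ, hσ⟩ := Finite.exists_max fun σ : ↥(F4AltSection.weylPerms S) =>
    posSum fun s => G₀ ((σ : Equiv.Perm _) s)
  obtain ⟨L₁, hL₁⟩ := σ.2
  set G := fun s => G₀ (Sys.wperm S L₁ s) with hGdef
  have hG : IsLin G := isLin_wperm hG₀ L₁
  have hGf : ∀ s, (G s : ZMod ℓ) = f (Sys.wperm S (L₀ ++ L₁) s) := fun s => by
    rw [Sys.wperm_append, Equiv.Perm.mul_apply]
    exact hf₀ _
  have hN : normZ G = normZ G₀ := Equiv.sum_comp (Sys.wperm S L₁) fun s => G₀ s ^ 2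
  have hpos : ∀ i : Fin 7, 0 ≤ G (sf i) := by
    intro i
    let j : Fin chevE7.rank := i
    have h := hσ ⟨Sys.wperm S (L₁ ++ [j]), L₁ ++ [j], rfl⟩
    simp only at h
    rw [hL₁] at h
    have e : (fun s => G₀ (Sys.wperm S (L₁ ++ [j]) s)) = fun s => G (Sys.srefl S j s) := by
      funext s
      rw [Sys.wperm_append, Equiv.Perm.mul_apply, show Sys.wperm S [j] = Sys.srefl S j from by
        rw [show [j] = j :: ([] : List (Fin chevE7.rank)) from rfl, Sys.wperm_cons]; exact mul_one _]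
    rw [e, posSum_refl hG] at h
    change posSum G - 2 * G (sf i) ≤ posSum G at h
    linarith
  have hth : ∑ m, theta m * G (sf m) ≤ (ℓ : ℤ) := by
    by_contra hlt
    push Not at hlt
    let E : Fin chevE7.nroots → ℤ := fun s => Sys.vec S (0 : Fin 7) s
    have hE : IsLin E := by
      intro s
      simp only [E, vec_sf, Int.cast_id]
      rw [Finset.sum_eq_single (0 : Fin 7) (fun b _ hb => by
        rw [if_neg fun h => hb (Fin.ext h.symm), mul_zero]) (fun h => absurd (Finset.mem_univ _) h),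
        if_pos rfl, mul_one]
    have hE2 : ∑ s, E s ^ 2 = 72 := by
      have := gram_eq 0 0
      simp only [E, sq, vec_eq]
      refine this.trans ?_
      rfl
    have hEG : ∑ s, G s * E s = 36 * ∑ m, theta m * G (sf m) := by
      rw [Finset.mul_sum]
      calc ∑ s, G s * E s = ∑ s : Fin chevE7.nroots, ∑ m : Fin 7,
          (Sys.vec S m s * G (sf m)) * E s := by
            refine Finset.sum_congr rfl fun s _ => ?_
            rw [hG s, Finset.sum_mul]
            simp only [Int.cast_id]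
        _ = ∑ m : Fin 7, ∑ s : Fin chevE7.nroots, (Sys.vec S m s * G (sf m)) * E s :=
            Finset.sum_comm
        _ = _ := Finset.sum_congr rfl fun m _ => by
            rw [← mul_assoc (36 : ℤ), ← gram_zero m, ← gram_eq 0 m, Finset.sum_mul]
            refine Finset.sum_congr rfl fun s _ => ?_
            simp only [E, vec_eq]
            ring
    let G' : Fin chevE7.nroots → ℤ := fun s => G s + (-(ℓ : ℤ)) * E s
    have hG' : IsLin G' := isLin_add hG (isLin_smul hE _)
    have hN' : normZ G' = normZ G - 2 * ℓ * (36 * ∑ m, theta m * G (sf m)) + 72 * (ℓ : ℤ) ^ 2 := by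
      rw [← hEG, ← hE2, normZ, normZ, Finset.sum_mul, Finset.mul_sum, ← Finset.sum_sub_distrib,
        ← Finset.sum_add_distrib]
      exact Finset.sum_congr rfl fun s _ => by simp only [G']; ring
    have h1 := hmin (L₀ ++ L₁) G' hG' fun s => by
      simp only [G', Int.cast_add, Int.cast_mul, Int.cast_neg, Int.cast_natCast, ZMod.natCast_self,
        neg_zero, zero_mul, add_zero, hGf]
    have hl : (0 : ℤ) < ℓ := by exact_mod_cast NeZero.pos ℓ
    rw [hN', hN] at h1
    nlinarith
  -- membership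
  refine ⟨L₀ ++ L₁, ?_⟩
  obtain ⟨a, ha⟩ := Int.eq_ofNat_of_zero_le (hpos 0)
  obtain ⟨b, hb⟩ := Int.eq_ofNat_of_zero_le (hpos 1)
  obtain ⟨c, hc⟩ := Int.eq_ofNat_of_zero_le (hpos 2)
  obtain ⟨d, hd⟩ := Int.eq_ofNat_of_zero_le (hpos 3)
  obtain ⟨e, he⟩ := Int.eq_ofNat_of_zero_le (hpos 4)
  obtain ⟨g, hg⟩ := Int.eq_ofNat_of_zero_le (hpos 5)
  obtain ⟨h, hh⟩ := Int.eq_ofNat_of_zero_le (hpos 6)
  rw [Fin.sum_univ_seven, ha, hb, hc, hd, he, hg, hh] at hth
  simp only [theta, Fin.isValue, Fin.val_zero, Fin.val_one, Fin.val_two,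
    show ((3 : Fin 7) : ℕ) = 3 from rfl, show ((4 : Fin 7) : ℕ) = 4 from rfl,
    show ((5 : Fin 7) : ℕ) = 5 from rfl, show ((6 : Fin 7) : ℕ) = 6 from rfl,
    List.getD_cons_zero, List.getD_cons_succ] at hth
  have hsum : 2 * a + 2 * b + 3 * c + 4 * d + 3 * e + 2 * g + h ≤ ℓ := by push_cast at hth; omega
  have hv : ∀ (m : Fin 7) (n : ℕ), G (sf m) = n →
      (f (Sys.wperm S (L₀ ++ L₁) (sf m))).val = n % ℓ := fun m n hn => by
    rw [← hGf, hn, Int.cast_natCast, ZMod.val_natCast]
  simp only [vals, hv 0 a ha, hv 1 b hb, hv 2 c hc, hv 3 d hd, hv 4 e he, hv 5 g hg, hv 6 h hh,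
    reps, List.mem_flatMap, List.mem_range, List.mem_map, List.mem_filter, decide_eq_true_eq]
  exact ⟨a, by omega, b, by omega, c, by omega, d, by omega, e, by omega, g, by omega, h,
    ⟨by omega, hsum⟩, rfl⟩

end CfsgLib.E7Alt65
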